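import Mathlib
import Cfsg.Agent.L.Fz0

/-! Part K of the cluster for `N(J(T))/J(T) ≅ M₂₄`: counts inside `B`. -/

set_option autoImplicit false
set_option linter.unusedSectionVars false
open Subgroup L.Fz

namespace Cfsg.Agent.H02.FzK
universe u

theorem ar : ∀ x : ℕ, x < 127 → 4 ∣ x → ¬ 8 ∣ x → x ∣ 2 ^ 21 * 3 ^ 7 * 5 → (126 - x) ∣ 2 ^ 21 * 3 ^ 7 * 5 → x = 36 ∨ x = 108 := by
  intro x h; interval_cases x <;> norm_num

open scoped Classical
variable {G : Type u} [Group G] [Fintype G] {A M B : Subgroup G} {D : Set G} {z : G}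

theorem orb (N : Subgroup G) (S : Finset G) (t : G) (i : ∀ m ∈ N, m * t * m⁻¹ ∈ S) (j : ∀ s ∈ S, ∃ m ∈ N, m * t * m⁻¹ = s) :
    Nat.card (N ⊓ centralizer {t} : Subgroup G) * S.card = Nat.card N := by
  let _ : MulAction N G := MulAction.compHom G (MulAut.conj.comp N.subtype)
  have e1 : MulAction.stabilizer N t = (N ⊓ centralizer {t}).subgroupOf N := by
    ext m
    rw [inf_subgroupOf_left, mem_subgroupOf, mem_centralizer_singleton_iff, MulAction.mem_stabilizer_iff]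
    exact mul_inv_eq_iff_eq_mul
  have e2 : MulAction.orbit N t = S := by
    ext s
    exact ⟨fun ⟨m, e⟩ => e ▸ i m m.2, fun h => (j s h).elim fun m k => ⟨⟨m, k.1⟩, k.2⟩⟩
  have := (MulAction.stabilizer N t).card_mul_index
  rwa [MulAction.index_stabilizer, e2, Set.ncard_coe_finset, e1, Nat.card_congr (subgroupOfEquivOfLe inf_le_left).toEquiv] at this

theorem free (K : Subgroup G) (S : Finset G) (i : ∀ k ∈ K, ∀ s ∈ S, k * s ∈ S) : Nat.card K ∣ S.card := by
  let _ : MulAction K S :=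
    { smul := fun g v => ⟨g * v, i g g.2 v v.2⟩
      one_smul := fun v => Subtype.ext (one_mul _)
      mul_smul := fun x y v => Subtype.ext (mul_assoc _ _ _) }
  rw [← Nat.card_eq_finsetCard, Nat.card_congr (MulAction.selfEquivOrbitsQuotientProd (G := K) (X := S) fun v => eq_bot_iff.2 fun g j =>
    Subtype.ext (mul_eq_right.1 (congrArg Subtype.val j))), Nat.card_prod]
  exact dvd_mul_left _ _

noncomputable def DB (B : Subgroup G) (D : Set G) : Finset G := Finset.univ.filter fun t => t ∈ D ∧ t ∈ B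
noncomputable def ZB (B : Subgroup G) (D : Set G) (z : G) : Finset G := Finset.univ.filter fun x => x ∈ B ∧ x ∉ D ∧ x ≠ 1 ∧ x ≠ z
theorem mD {t : G} : t ∈ DB B D ↔ t ∈ D ∧ t ∈ B := by simp [DB]
theorem mZ {x : G} : x ∈ ZB B D z ↔ x ∈ B ∧ x ∉ D ∧ x ≠ 1 ∧ x ≠ z := by simp [ZB]
noncomputable def nn (B : Subgroup G) (D : Set G) (v : G) : ℕ := ((DB B D).filter fun s => s * v ∈ D).card
noncomputable def ab (B : Subgroup G) (D : Set G) (z v : G) : ℕ := ((ZB B D z).filter fun s => s * v ∈ D).card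

variable (h : Cf A M B D z)
include h

theorem sq {x : G} (i : x ∈ B) : x * x = 1 := h.sq x (h.BA i)
theorem ss {x : G} (i : x ∈ B) (v : G) : x * (x * v) = v := by rw [← mul_assoc, sq h i, one_mul]
theorem ss' {x : G} (i : x ∈ B) (v : G) : v * x * x = v := by rw [mul_assoc, sq h i, mul_one]
theorem iv {x : G} (i : x ∈ B) : x⁻¹ = x := inv_eq_of_mul_eq_one_right (sq h i)
theorem cm {x y : G} (i : x ∈ B) (j : y ∈ B) : x * y = y * x := by
  rw [← iv h (mul_mem i j), mul_inv_rev, iv h i, iv h j]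
theorem zD {v : G} (i : v ∈ B) : z * v ∈ D ↔ v ∈ D := ⟨fun k => by
  have := h.Bz _ k (mul_mem h.zB i)
  rwa [cm h h.zB i, ss' h h.zB] at this, fun k => cm h i h.zB ▸ h.Bz _ k i⟩
theorem n1 : (1 : G) ∉ D := fun k => (h.DA 1 k).2 rfl

theorem part (p : G → Prop) : (Finset.univ.filter fun v => v ∈ B ∧ p v).card =
    (if p 1 then 1 else 0) + (if p z then 1 else 0) + ((DB B D).filter p).card + ((ZB B D z).filter p).card := by
  have e : (Finset.univ.filter fun v => v ∈ B ∧ p v) = (insert 1 (insert z (DB B D ∪ ZB B D z))).filter p := by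
    ext v
    simp only [Finset.mem_filter, Finset.mem_univ, true_and, Finset.mem_insert, Finset.mem_union, mD, mZ]
    refine and_congr_left fun _ => ⟨fun i => by tauto, ?_⟩
    rintro (rfl | rfl | i | i)
    exacts [one_mem _, h.zB, i.2, i.1]
  have d : Disjoint ((DB B D).filter p) ((ZB B D z).filter p) :=
    Finset.disjoint_filter_filter (Finset.disjoint_left.2 fun v i j => (mZ.1 j).2.1 (mD.1 i).1)
  have a1 : z ∉ (DB B D ∪ ZB B D z).filter p := by simp [mD, mZ, h.zD]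
  have a2 : (1 : G) ∉ (insert z (DB B D ∪ ZB B D z)).filter p := by simp [mD, mZ, n1 h, h.z1.symm]
  rw [e, Finset.filter_insert]
  split_ifs <;> (try rw [Finset.card_insert_of_notMem a2]) <;> rw [Finset.filter_insert] <;> simp only [*, if_true, if_false] <;>
    (try rw [Finset.card_insert_of_notMem a1]) <;> rw [Finset.filter_union, Finset.card_union_of_disjoint d] <;> omega

theorem e126 : (DB B D).card + (ZB B D z).card = 126 := by
  have := part h fun _ => True
  simp only [and_true, if_true, Finset.filter_true] at this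
  have c := h.cB
  rw [Nat.card_eq_fintype_card, Fintype.card_subtype] at c
  omega

theorem e0 {v : G} (i : v ∈ B) : (if v ∈ D then 2 else 0) + nn B D v + ab B D z v = (DB B D).card := by
  have := part h fun s => s * v ∈ D
  have e : (Finset.univ.filter fun s => s ∈ B ∧ s * v ∈ D).card = (DB B D).card :=
    Finset.card_bij (fun s _ => s * v) (fun s k => mD.2 ⟨(Finset.mem_filter.1 k).2.2, mul_mem (Finset.mem_filter.1 k).2.1 i⟩)
      (fun _ _ _ _ => mul_right_cancel) fun t k => ⟨t * v, Finset.mem_filter.2 ⟨Finset.mem_univ _, mul_mem (mD.1 k).2 i, by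
        rw [ss' h i]; exact (mD.1 k).1⟩, ss' h i t⟩
  simp only [one_mul, zD h i] at this
  rw [← e, this, nn, ab]
  split_ifs <;> rfl

theorem nle {m : G} (i : m ∈ M) (j : m * z * m⁻¹ = z) (v : G) : nn B D v ≤ nn B D (m * v * m⁻¹) :=
  Finset.card_le_card_of_injOn (fun s => m * s * m⁻¹) (fun s k => by
    have k := Finset.mem_filter.1 k
    refine Finset.mem_filter.2 ⟨mD.2 ⟨h.Dc m i s (mD.1 k.1).1, h.nB m i j s (mD.1 k.1).2⟩, ?_⟩
    rw [conj_mul]; exact h.Dc m i _ k.2) fun _ _ _ _ e => mul_left_cancel (mul_right_cancel e)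

theorem nD {s t : G} (i : s ∈ DB B D) (j : t ∈ DB B D) : nn B D s ≤ nn B D t := by
  obtain ⟨m, a, b, rfl⟩ := h.trDB s (mD.1 i).1 (mD.1 i).2 t (mD.1 j).1 (mD.1 j).2
  exact nle h a b s

theorem nZ {s t : G} (i : s ∈ ZB B D z) (j : t ∈ ZB B D z) : nn B D s ≤ nn B D t := by
  obtain ⟨a1, a2, a3, a4⟩ := mZ.1 i
  obtain ⟨b1, b2, b3, b4⟩ := mZ.1 j
  obtain ⟨m, a, b, rfl⟩ := h.trZB s a1 a2 a3 a4 t b1 b2 b3 b4
  exact nle h a b s

theorem e3 {t w : G} (i : t ∈ DB B D) (j : w ∈ ZB B D z) : (DB B D).card * ab B D z t = (ZB B D z).card * nn B D w :=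
  Finset.card_mul_eq_card_mul (fun t w => w * t ∈ D) (fun s k => by
    have a := e0 h (mD.1 k).2
    have b := e0 h (mD.1 i).2
    have := nD h i k
    have := nD h k i
    rw [if_pos (mD.1 k).1] at a
    rw [if_pos (mD.1 i).1] at b
    exact (show ab B D z s = _ by omega)) fun v k => by
    refine Eq.trans ?_ (le_antisymm (nZ h k j) (nZ h j k))
    exact congrArg Finset.card (Finset.filter_congr fun s l => by beta_reduce; rw [cm h (mZ.1 k).1 (mD.1 l).2])

theorem e4 {t : G} (i : t ∈ DB B D) : 4 ∣ nn B D t := by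
  obtain ⟨tD, tB⟩ := mD.1 i
  let S := (DB B D).filter fun s => s * t ∈ D
  let K : Subgroup G :=
    { carrier := {k | k ∈ B ∧ ∀ s ∈ S, k * s ∈ S}
      one_mem' := ⟨one_mem _, fun s k => by rwa [one_mul]⟩
      mul_mem' := fun a b => ⟨mul_mem a.1 b.1, fun s k => by rw [mul_assoc]; exact a.2 _ (b.2 s k)⟩
      inv_mem' := fun a => by rwa [iv h a.1] }
  have a1 : Nat.card K ∣ nn B D t := free K S fun k a => a.2
  have a2 : Nat.card K ∣ 2 ^ 7 := (card_dvd_of_le (show K ≤ B from fun _ a => a.1)).trans h.cB.dvd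
  have kz : z ∈ K := ⟨h.zB, fun s k => by
    obtain ⟨k1, k2⟩ := Finset.mem_filter.1 k
    obtain ⟨k3, k4⟩ := mD.1 k1
    exact Finset.mem_filter.2 ⟨mD.2 ⟨(zD h k4).2 k3, mul_mem h.zB k4⟩, by rw [mul_assoc]; exact (zD h (mul_mem k4 tB)).2 k2⟩⟩
  have kt : t ∈ K := ⟨tB, fun s k => by
    obtain ⟨k1, k2⟩ := Finset.mem_filter.1 k
    obtain ⟨k3, k4⟩ := mD.1 k1
    rw [cm h tB k4]
    exact Finset.mem_filter.2 ⟨mD.2 ⟨k2, mul_mem k4 tB⟩, by rw [ss' h tB]; exact k3⟩⟩
  have a3 : 2 < Nat.card K := by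
    rw [Nat.card_eq_fintype_card, Fintype.two_lt_card_iff]
    exact ⟨1, ⟨z, kz⟩, ⟨t, kt⟩, fun e => h.z1 (congrArg Subtype.val e).symm, fun e => (h.DA t tD).2 (congrArg Subtype.val e).symm,
      fun e => h.zD ((show z = t from congrArg Subtype.val e) ▸ tD)⟩
  obtain ⟨k, -, e⟩ := (Nat.dvd_prime_pow Nat.prime_two).1 a2
  refine Dvd.dvd.trans ?_ a1
  rw [e] at a3 ⊢
  exact pow_dvd_pow 2 (show 2 ≤ k by by_contra n; interval_cases k <;> omega)

theorem oD {t : G} (i : t ∈ DB B D) :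
    Nat.card (M ⊓ centralizer {z} ⊓ centralizer {t} : Subgroup G) * (DB B D).card = Nat.card (M ⊓ centralizer {z} : Subgroup G) :=
  orb _ _ t (fun m k => mD.2 ⟨h.Dc m k.1 t (mD.1 i).1, h.nB m k.1 (by
    rw [mem_centralizer_singleton_iff.1 k.2, mul_inv_cancel_right]) t (mD.1 i).2⟩) fun s k => by
    obtain ⟨m, a, b, c⟩ := h.trDB t (mD.1 i).1 (mD.1 i).2 s (mD.1 k).1 (mD.1 k).2
    exact ⟨m, ⟨a, mem_centralizer_singleton_iff.2 (mul_inv_eq_iff_eq_mul.1 b)⟩, c⟩

theorem oZ {t : G} (i : t ∈ ZB B D z) : (ZB B D z).card ∣ Nat.card (M ⊓ centralizer {z} : Subgroup G) := by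
  obtain ⟨a1, a2, a3, a4⟩ := mZ.1 i
  refine Dvd.intro_left _ (orb _ _ t (fun m k => ?_) fun s k => ?_)
  · have e : m * z * m⁻¹ = z := by rw [mem_centralizer_singleton_iff.1 k.2, mul_inv_cancel_right]
    refine mZ.2 ⟨h.nB m k.1 e t a1, fun n => a2 ?_, fun n => a3 (by simpa using n), fun n => a4
      (mul_left_cancel (mul_right_cancel (n.trans e.symm)))⟩
    simpa [mul_assoc] using h.Dc _ (inv_mem k.1) _ n
  · obtain ⟨b1, b2, b3, b4⟩ := mZ.1 k
    obtain ⟨m, a, b, c⟩ := h.trZB t a1 a2 a3 a4 s b1 b2 b3 b4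
    exact ⟨m, ⟨a, mem_centralizer_singleton_iff.2 (mul_inv_eq_iff_eq_mul.1 b)⟩, c⟩

theorem c36 : (DB B D).card = 36 := by
  obtain ⟨t, tD, tB⟩ := h.exD
  obtain ⟨w, hw⟩ := h.exZ
  have i : t ∈ DB B D := mD.2 ⟨tD, tB⟩
  have j : w ∈ ZB B D z := mZ.2 hw
  have a1 := oD h i
  have a2 := (oZ h j).trans h.cN
  have a3 := e126 h
  obtain ⟨⟨c, hc⟩, a4⟩ := h.c19 t tD tB
  have a5 := h.c21
  have a6 := h.cN
  rw [← a1, hc] at a5 a6
  rw [hc] at a4
  have co : Nat.Coprime 2 c := (Nat.Prime.coprime_iff_not_dvd Nat.prime_two).2 fun ⟨k, e⟩ => a4 ⟨k, by rw [e]; ring⟩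
  have b4 : 4 ∣ (DB B D).card := (co.pow_left 2).dvd_of_dvd_mul_left (Nat.dvd_of_mul_dvd_mul_left (by norm_num : 0 < 2 ^ 19) (by
    rwa [← mul_assoc]))
  refine (ar _ (by omega) b4 (fun ⟨k, e⟩ => absurd ((show 2 ^ 22 ∣ _ from ⟨c * k, by rw [e]; ring⟩).trans a6) (by norm_num))
    ((dvd_mul_left _ _).trans a6) (by rwa [show 126 - (DB B D).card = (ZB B D z).card by omega])).resolve_right fun e => ?_
  have g : ∀ v ∈ ZB B D z, ∀ u ∈ ZB B D z, u * v ∉ D := fun v k u l n => by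
    have b1 := e0 h tB
    have b2 := e0 h (mZ.1 k).1
    have b3 := e3 h i k
    have b5 := e4 h i
    have b6 : ∀ x, ab B D z x ≤ (ZB B D z).card := fun x => Finset.card_filter_le _ _
    have b7 : 0 < ab B D z v := Finset.card_pos.2 ⟨u, Finset.mem_filter.2 ⟨l, n⟩⟩
    have := b6 t
    have := b6 v
    rw [if_pos tD] at b1
    rw [if_neg (mZ.1 k).2.1] at b2
    rw [e, show (ZB B D z).card = 18 by omega] at b3
    omega
  let H : Subgroup G :=
    { carrier := {x | x ∈ B ∧ x ∉ D}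
      one_mem' := ⟨one_mem _, n1 h⟩
      mul_mem' := fun {a b} p q => ⟨mul_mem p.1 q.1, fun n => by
        by_cases a1 : a = 1
        · exact q.2 (by rwa [a1, one_mul] at n)
        by_cases b1 : b = 1
        · exact p.2 (by rwa [b1, mul_one] at n)
        by_cases a2 : a = z
        · exact q.2 ((zD h q.1).1 (a2 ▸ n))
        by_cases b2 : b = z
        · exact p.2 ((zD h p.1).1 (by rwa [b2, cm h p.1 h.zB] at n))
        exact g b (mZ.2 ⟨q.1, q.2, b1, b2⟩) a (mZ.2 ⟨p.1, p.2, a1, a2⟩) n⟩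
      inv_mem' := fun a => by rwa [iv h a.1] }
  have d1 : Nat.card H ∣ 128 := (card_dvd_of_le (show H ≤ B from fun _ a => a.1)).trans h.cB.dvd
  have d2 := part h fun v => v ∈ H
  rw [if_pos H.one_mem, if_pos (show z ∈ H from ⟨h.zB, h.zD⟩), Finset.filter_false_of_mem (s := DB B D) fun v k n => n.2 (mD.1 k).1,
    Finset.filter_true_of_mem (s := ZB B D z) fun v k => (show v ∈ H from ⟨(mZ.1 k).1, (mZ.1 k).2.1⟩), Finset.card_empty] at d2
  have d3 : Nat.card H = (Finset.univ.filter fun v => v ∈ B ∧ v ∈ H).card := by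
    rw [Nat.card_eq_fintype_card, Fintype.card_subtype]
    exact congrArg Finset.card (Finset.filter_congr fun v _ => ⟨fun a => ⟨a.1, a⟩, fun a => a.2⟩)
  rw [d3, d2, show (ZB B D z).card = 18 by omega] at d1
  omega

theorem c4 {t : G} (i : t ∈ DB B D) : nn B D t = 4 := by
  obtain ⟨tD, tB⟩ := mD.1 i
  have a1 := c36 h
  have a2 := e126 h
  have b1 := e0 h tB
  have b5 := e4 h i
  rw [if_pos tD] at b1
  obtain ⟨w0, hw0⟩ := h.exZ
  have b2 := e3 h i (mZ.2 hw0)
  have a3 : (ZB B D z).card = 90 := by omega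
  rw [a1, a3] at b2
  by_contra n
  obtain ⟨w, hw⟩ := Finset.card_pos.1 (show 0 < ab B D z t by omega)
  obtain ⟨j, uD⟩ := Finset.mem_filter.1 hw
  obtain ⟨wB, wD, w1, wz⟩ := mZ.1 j
  have b3 := e3 h i j
  rw [a1, a3] at b3
  have u : w * t ∈ DB B D := mD.2 ⟨uD, mul_mem wB tB⟩
  have b4 := nD h i u
  obtain ⟨s, hs⟩ : (((DB B D).filter fun s => s * t ∈ D) ∩ (DB B D).filter fun s => s * (w * t) ∈ D).Nonempty := by
    refine Finset.inter_nonempty_of_card_lt_card_add_card (Finset.filter_subset _ _) (Finset.filter_subset _ _) ?_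
    show _ < nn B D t + nn B D (w * t)
    omega
  simp only [Finset.mem_inter, Finset.mem_filter, mD] at hs
  obtain ⟨⟨⟨sD, sB⟩, s1⟩, -, s2⟩ := hs
  have zwD : z * w ∉ D := fun k => wD ((zD h wB).1 k)
  have c5 : ({1, z, w, z * w, s} : Finset G).card = 5 := by
    have : s ≠ 1 := (h.DA s sD).2
    have : s ≠ z := fun e => h.zD (e ▸ sD)
    have : s ≠ w := fun e => wD (e ▸ sD)
    have := this.symm
    have : s ≠ z * w := fun e => zwD (e ▸ sD)
    have : z * w ≠ 1 := fun e => wz (by rw [← ss h h.zB w, e, mul_one])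
    have := h.z1
    have : w ≠ z * w := fun e => h.z1 (mul_eq_right.1 e.symm)
    have : z ≠ z * w := fun e => w1 (mul_eq_left.1 e.symm)
    rw [Finset.card_insert_of_notMem, Finset.card_insert_of_notMem, Finset.card_insert_of_notMem, Finset.card_insert_of_notMem,
      Finset.card_singleton] <;> simp only [Finset.mem_insert, Finset.mem_singleton, not_or] <;>
      (repeat' constructor) <;> first | assumption | exact Ne.symm ‹_›
  have tw : t * w ∈ D := cm h wB tB ▸ uD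
  have c6 : ({1, z, w, z * w, s} : Finset G).card ≤ nn B D w :=
    Finset.card_le_card_of_injOn (· * t) (fun v k => by
      simp only [Finset.coe_insert, Finset.coe_singleton, Set.mem_insert_iff, Set.mem_singleton_iff] at k
      beta_reduce
      refine Finset.mem_filter.2 ⟨mD.2 ⟨?_, mul_mem ?_ tB⟩, ?_⟩ <;> rcases k with rfl | rfl | rfl | rfl | rfl
      exacts [by rwa [one_mul], (zD h tB).2 tD, uD, by rw [mul_assoc]; exact (zD h (mul_mem wB tB)).2 uD, s1,
        one_mem _, h.zB, wB, mul_mem h.zB wB, sB, by rwa [one_mul], by rw [mul_assoc]; exact (zD h (mul_mem tB wB)).2 tw,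
        by rwa [cm h wB tB, ss' h wB], by rw [mul_assoc z, cm h wB tB, mul_assoc, ss' h wB]; exact (zD h tB).2 tD,
        by rwa [mul_assoc, cm h tB wB]]) fun _ _ _ _ => mul_right_cancel
  omega

omit h in
theorem k : KStmt.{u} := fun {G} _ _ {A M B D z} h => by
  have := Fintype.ofFinite G
  refine ⟨?_, fun t tD tB => ?_, ?_⟩
  · rw [← c36 h, ← Set.ncard_coe_finset]; congr; ext; simp [mD]
  · rw [← c4 h (mD.2 ⟨tD, tB⟩), nn, ← Set.ncard_coe_finset]; congr; ext; simp [mD, and_assoc]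
  · obtain ⟨w, hw⟩ := h.exZ
    have a := oZ h (mZ.2 hw)
    have := e126 h
    have := c36 h
    rw [show (ZB B D z).card = 90 by omega] at a
    exact Nat.Coprime.mul_dvd_of_dvd_of_dvd (by norm_num) ((show 45 ∣ 90 by norm_num).trans a) h.c21

end Cfsg.Agent.H02.FzK
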