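import Mathlib
import Cfsg.Agent.H06.J0

/-! Part L of the cluster for S5566: lifting the hexad subgroup through a central extension by `⟨d⟩`. -/

set_option autoImplicit false
open Subgroup Cfsg.Agent.H06.J

namespace Cfsg.Agent.H02.JL
universe u v

theorem core {H : Type u} {P : Type v} [Group H] [Finite H] [Group P] [Finite P] (ρ : H →* P) {d : H} {K₀ Y₀ : Subgroup P}
    (d3 : d * (d * d) = 1) (cen : ∀ g, g * d = d * g) (dc : d ∈ commutator H) (sur : Function.Surjective ρ)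
    (ker : ∀ m, ρ m = 1 ↔ m ∈ zpowers d) (h : Hx 1 K₀ Y₀) (i : K₀.index = 77) :
    ∃ K Y : Subgroup H, Hx d K Y ∧ K.index = 77 ∧ d ∈ ⁅K, K⁆ := by
  have d3' : d ^ 3 = 1 := by rw [← d3, pow_three]
  have kc : ∀ c, ρ c = 1 → c ^ 3 = 1 ∧ ∀ g, Commute g c := fun c k => by
    obtain ⟨n, rfl⟩ := (ker c).1 k
    exact ⟨by rw [← zpow_natCast, ← zpow_mul, mul_comm, zpow_mul, zpow_natCast, d3', one_zpow],
      fun g => (show Commute g d from cen g).zpow_right n⟩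
  have k1 : ∀ c, ρ c = 1 → c * c = 1 → c = 1 := fun c k e => by
    have := (kc c k).1
    rwa [pow_three, e, mul_one] at this
  have inj : ∀ g k, ρ g = ρ k → g * g = 1 → k * k = 1 → g = k := fun g k e a b => by
    have c : ρ (g * k⁻¹) = 1 := by rw [map_mul, map_inv, e, mul_inv_cancel]
    refine mul_inv_eq_one.1 (k1 _ c ?_)
    have := ((kc _ c).2 k).eq
    rw [inv_mul_cancel_right] at this
    rw [inv_eq_of_mul_eq_one_right b] at this ⊢
    calc g * k * (g * k) = g * (k * (g * k)) := mul_assoc _ _ _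
      _ = 1 := by rw [this, a]
  have lift : ∀ p : P, p * p = 1 → ∃ g, ρ g = p ∧ g * g = 1 := fun p e => by
    obtain ⟨g, rfl⟩ := sur p
    refine ⟨g ^ 3, by rw [map_pow, pow_three, e, mul_one], ?_⟩
    rw [← (Commute.refl g).mul_pow]
    exact (kc _ (by rw [map_mul, e])).1
  have iv : ∀ y ∈ Y₀, y⁻¹ = y := fun y j => inv_eq_of_mul_eq_one_right (h.Y2 y j)
  have cm : ∀ g k, ρ g ∈ Y₀ → ρ k ∈ Y₀ → g * g = 1 → k * k = 1 → g * k = k * g := fun g k a b e f => by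
    rw [← mul_inv_eq_iff_eq_mul]
    refine inj _ _ ?_ (by rw [conj_mul, f, mul_one, mul_inv_cancel]) f
    rw [map_mul, map_mul, map_inv, mul_inv_eq_iff_eq_mul, ← iv _ (mul_mem a b), mul_inv_rev, iv _ a, iv _ b]
  let Y : Subgroup H :=
    { carrier := {g | ρ g ∈ Y₀ ∧ g * g = 1}
      one_mem' := ⟨by rw [map_one]; exact one_mem _, one_mul _⟩
      mul_mem' := fun {a b} p q => ⟨by rw [map_mul]; exact mul_mem p.1 q.1, by
        rw [mul_assoc, ← mul_assoc b, ← cm a b p.1 q.1 p.2 q.2, mul_assoc, q.2, mul_one, p.2]⟩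
      inv_mem' := fun {a} p => by rwa [inv_eq_of_mul_eq_one_right p.2] }
  have Ym : ∀ J : Subgroup H, Y ≤ J → Y₀ ≤ J.map ρ := fun J l y j => by
    obtain ⟨g, rfl, e⟩ := lift y (h.Y2 y j)
    exact ⟨g, l ⟨j, e⟩, rfl⟩
  have cJ : ∀ J : Subgroup H, d ∈ J → (J.map ρ).comap ρ = J := fun J j =>
    comap_map_eq_self fun c k => zpowers_le.2 j ((ker c).1 k)
  have dK : d ∈ K₀.comap ρ := by rw [mem_comap, (ker d).2 (mem_zpowers d)]; exact one_mem _
  have iK : (K₀.comap ρ).index = 77 := (index_comap_of_surjective _ sur).trans i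
  refine ⟨K₀.comap ρ, Y, ⟨dK, fun y j => h.YK j.1, ?_, fun y j => j.2, fun k a y j => ⟨?_, ?_⟩, fun y a y' b n n' => ?_,
    fun J l a b c => ?_, fun N l a b c => ?_, fun E l e => ?_⟩, iK, ?_⟩
  · rw [← h.cY]
    refine Nat.card_eq_of_bijective (fun y : Y => (⟨ρ y, y.2.1⟩ : Y₀)) ⟨fun a b e => Subtype.ext
      (inj _ _ (congrArg Subtype.val e) a.2.2 b.2.2), fun y => ?_⟩
    obtain ⟨g, e, f⟩ := lift y (h.Y2 y y.2)
    exact ⟨⟨g, e ▸ y.2, f⟩, Subtype.ext e⟩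
  · rw [map_mul, map_mul, map_inv]; exact h.nY _ a _ j.1
  · rw [conj_mul, j.2, mul_one, mul_inv_cancel]
  · obtain ⟨k, j, e⟩ := h.tr _ a.1 _ b.1 (fun e => n (k1 _ e a.2)) fun e => n' (k1 _ e b.2)
    obtain ⟨k, rfl⟩ := sur k
    exact ⟨k, j, inj _ _ (by rw [map_mul, map_mul, map_inv, e]) (by rw [conj_mul, a.2, mul_one, mul_inv_cancel]) b.2⟩
  · rw [← cJ J b] at c ⊢
    rw [relIndex_comap, map_comap_eq_self_of_surjective sur] at c
    exact comap_mono (h.s1 _ (map_le_iff_le_comap.2 l) (Ym J a) (one_mem _) c)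
  · refine (h.s2 (N.map ρ) (map_le_iff_le_comap.2 l) (Ym N a) (one_mem _) ?_).imp (fun q => cJ N b ▸ comap_mono q)
      fun q g j e => ⟨q _ ⟨g, j, rfl⟩ (by rw [← map_mul, e, map_one]), e⟩
    rintro k j _ ⟨n, m, rfl⟩
    obtain ⟨k, rfl⟩ := sur k
    exact ⟨_, c k j n m, by rw [map_mul, map_mul, map_inv]⟩
  · have a1 := h.s3 (E.map ρ) (map_le_iff_le_comap.2 l) (by rintro _ ⟨g, j, rfl⟩; rw [← map_mul, e g j, map_one])
    have a2 := Nat.card_le_card_of_injective (fun g : E => (⟨ρ g, g, g.2, rfl⟩ : E.map ρ)) fun a b q =>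
      Subtype.ext (inj _ _ (congrArg Subtype.val q) (e _ a.2) (e _ b.2))
    have a3 := card_le_of_le (show E.map ρ ⊓ Y₀ ≤ (E ⊓ Y).map ρ by rintro _ ⟨⟨g, j, rfl⟩, q⟩; exact ⟨g, ⟨j, q, e g j⟩, rfl⟩)
    have a4 := Nat.le_of_dvd Nat.card_pos (card_map_dvd (E ⊓ Y) ρ)
    omega
  · have : (K₀.comap ρ).FiniteIndex := ⟨by rw [iK]; norm_num⟩
    have a1 := MonoidHom.transfer_eq_pow (Abelianization.of : K₀.comap ρ →* _) d fun k g _ => by
      rw [mul_assoc, ← ((show Commute g d from cen g).pow_right k).eq, inv_mul_cancel_left]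
    rw [MonoidHom.mem_ker.1 (Abelianization.commutator_subset_ker (MonoidHom.transfer (Abelianization.of : K₀.comap ρ →* _)) dc),
      eq_comm, ← MonoidHom.mem_ker, Abelianization.ker_of] at a1
    have a2 : d ^ (K₀.comap ρ).index ∈ ⁅K₀.comap ρ, K₀.comap ρ⁆ := map_subtype_commutator (K₀.comap ρ) ▸ ⟨_, a1, rfl⟩
    have a3 := pow_mem a2 2
    rwa [iK, ← pow_mul, show 77 * 2 = 3 * 51 + 1 from rfl, pow_succ, pow_mul, d3', one_pow, one_mul] at a3

theorem tp {H Γ : Type u} [Group H] [Group Γ] (f : H →* Γ) (fi : Function.Injective f) {d : H} {K Y : Subgroup H} (h : Hx d K Y) :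
    Hx (f d) (K.map f) (Y.map f) := by
  have mc : ∀ J ≤ K.map f, (J.comap f).map f = J := fun J l => map_comap_eq_self (l.trans (map_le_range f K))
  have lc : ∀ J ≤ K.map f, J.comap f ≤ K := fun J l => (comap_mono l).trans (comap_map_eq_self_of_injective fi K).le
  refine ⟨⟨d, h.dK, rfl⟩, map_mono h.YK, (card_map_of_injective fi).trans h.cY, ?_, ?_, ?_, fun J l a b c => ?_, fun N l a b c => ?_,
    fun E l e => ?_⟩
  · rintro _ ⟨y, j, rfl⟩; rw [← map_mul, h.Y2 y j, map_one]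
  · rintro _ ⟨k, i, rfl⟩ _ ⟨y, j, rfl⟩
    exact ⟨_, h.nY k i y j, by rw [map_mul, map_mul, map_inv]⟩
  · rintro _ ⟨y, i, rfl⟩ _ ⟨y', j, rfl⟩ n n'
    obtain ⟨k, a, e⟩ := h.tr y i y' j (fun q => n (by rw [q, map_one])) fun q => n' (by rw [q, map_one])
    exact ⟨f k, ⟨k, a, rfl⟩, by rw [← e, map_mul, map_mul, map_inv]⟩
  · exact map_le_iff_le_comap.2 (h.s1 _ (lc J l) (map_le_iff_le_comap.1 a) b (by rwa [relIndex_comap]))
  · refine (h.s2 _ (lc N l) (map_le_iff_le_comap.1 a) b fun k i n j => ?_).imp map_le_iff_le_comap.2 fun q g j e => ?_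
    · rw [mem_comap, map_mul, map_mul, map_inv]; exact c _ ⟨k, i, rfl⟩ _ j
    · obtain ⟨g, -, rfl⟩ := l j
      exact ⟨g, q g j (fi (by rw [map_mul, e, map_one])), rfl⟩
  · have := h.s3 _ (lc E l) fun g j => fi (by rw [map_mul, e _ j, map_one])
    rwa [← card_map_of_injective fi, ← card_map_of_injective (K := E.comap f ⊓ Y) fi, map_inf _ _ _ fi, mc E l] at this

theorem l : LStmt.{u} := fun {Γ} _ _ {d M} ρ {K₀ Y₀} d3 dM cen dc sur ker h i => by
  obtain ⟨K, Y, a, b, c⟩ := core ρ (d := ⟨d, dM⟩) (Subtype.ext d3) (fun g => Subtype.ext (cen g g.2)) (by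
    obtain ⟨x, j, e⟩ := (map_subtype_commutator M).ge dc
    rwa [show x = ⟨d, dM⟩ from Subtype.ext e] at j) sur (fun m => (ker m).trans
      ⟨fun ⟨n, e⟩ => ⟨n, Subtype.ext e⟩, fun ⟨n, e⟩ => ⟨n, congrArg Subtype.val e⟩⟩) h i
  refine ⟨_, _, tp M.subtype Subtype.val_injective a, map_subtype_le K, ?_, ?_⟩
  · rw [relIndex, ← b]; congr; exact comap_map_eq_self_of_injective Subtype.val_injective K
  · rw [← map_commutator]; exact ⟨_, c, rfl⟩

end Cfsg.Agent.H02.JL
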