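import Mathlib
import Cfsg.Agent.H02.JL
import Cfsg.Agent.H23.K0

/-! Part L2 of the cluster for S5567. -/

set_option autoImplicit false
open Subgroup Cfsg.Agent.H06.J Cfsg.Agent.H23.K BG

namespace Cfsg.Agent.H02.KL
universe u v

theorem core {H : Type u} {P : Type v} [Group H] [Finite H] [Group P] [Finite P] (ρ : H →* P) {d : H} {K₀ Y₀ : Subgroup P}
    (d3 : d * (d * d) = 1) (cen : ∀ g, g * d = d * g) (dc : d ∈ commutator H) (sur : Function.Surjective ρ)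
    (ker : ∀ m, ρ m = 1 ↔ m ∈ zpowers d) (h : Hx 1 K₀ Y₀) (i : K₀.index = 77) :
    ∃ Y : Subgroup H, Hx d (K₀.comap ρ) Y ∧ (K₀.comap ρ).index = 77 ∧ d ∈ ⁅K₀.comap ρ, K₀.comap ρ⁆ ∧
      (∀ g, g ∈ Y ↔ ρ g ∈ Y₀ ∧ g * g = 1) ∧ ∀ p : P, p * p = 1 → ∃ g, ρ g = p ∧ g * g = 1 := by
  have d3' : d ^ 3 = 1 := by rw [← d3, pow_three]
  have kc : ∀ c, ρ c = 1 → c ^ 3 = 1 ∧ ∀ g, Commute g c := fun c k => by
    obtain ⟨n, rfl⟩ := (ker c).1 k
    exact ⟨by rw [← zpow_natCast, ← zpow_mul, mul_comm, zpow_mul, zpow_natCast, d3', one_zpow],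
      fun g => (show Commute g d from cen g).zpow_right n⟩
  have k1 : ∀ c, ρ c = 1 → c * c = 1 → c = 1 := fun c k e => by
    have := (kc c k).1
    rwa [pow_three, e, mul_one] at this
  have inj : ∀ g k, ρ g = ρ k → g * g = 1 → k * k = 1 → g = k := fun g k e a b => by
    have c : ρ (g * k⁻¹) = 1 := by rw [map_mul, map_inv, e, mul_inv_cancel]
    refine mul_inv_eq_one.1 (k1 _ c ?_)
    have := ((kc _ c).2 k).eq
    rw [inv_mul_cancel_right] at this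
    rw [inv_eq_of_mul_eq_one_right b] at this ⊢
    calc g * k * (g * k) = g * (k * (g * k)) := mul_assoc _ _ _
      _ = 1 := by rw [this, a]
  have lift : ∀ p : P, p * p = 1 → ∃ g, ρ g = p ∧ g * g = 1 := fun p e => by
    obtain ⟨g, rfl⟩ := sur p
    refine ⟨g ^ 3, by rw [map_pow, pow_three, e, mul_one], ?_⟩
    rw [← (Commute.refl g).mul_pow]
    exact (kc _ (by rw [map_mul, e])).1
  have iv : ∀ y ∈ Y₀, y⁻¹ = y := fun y j => inv_eq_of_mul_eq_one_right (h.Y2 y j)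
  have cm : ∀ g k, ρ g ∈ Y₀ → ρ k ∈ Y₀ → g * g = 1 → k * k = 1 → g * k = k * g := fun g k a b e f => by
    rw [← mul_inv_eq_iff_eq_mul]
    refine inj _ _ ?_ (by rw [conj_mul, f, mul_one, mul_inv_cancel]) f
    rw [map_mul, map_mul, map_inv, mul_inv_eq_iff_eq_mul, ← iv _ (mul_mem a b), mul_inv_rev, iv _ a, iv _ b]
  let Y : Subgroup H :=
    { carrier := {g | ρ g ∈ Y₀ ∧ g * g = 1}
      one_mem' := ⟨by rw [map_one]; exact one_mem _, one_mul _⟩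
      mul_mem' := fun {a b} p q => ⟨by rw [map_mul]; exact mul_mem p.1 q.1, by
        rw [mul_assoc, ← mul_assoc b, ← cm a b p.1 q.1 p.2 q.2, mul_assoc, q.2, mul_one, p.2]⟩
      inv_mem' := fun {a} p => by rwa [inv_eq_of_mul_eq_one_right p.2] }
  have Ym : ∀ J : Subgroup H, Y ≤ J → Y₀ ≤ J.map ρ := fun J l y j => by
    obtain ⟨g, rfl, e⟩ := lift y (h.Y2 y j)
    exact ⟨g, l ⟨j, e⟩, rfl⟩
  have cJ : ∀ J : Subgroup H, d ∈ J → (J.map ρ).comap ρ = J := fun J j =>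
    comap_map_eq_self fun c k => zpowers_le.2 j ((ker c).1 k)
  have dK : d ∈ K₀.comap ρ := by rw [mem_comap, (ker d).2 (mem_zpowers d)]; exact one_mem _
  have iK : (K₀.comap ρ).index = 77 := (index_comap_of_surjective _ sur).trans i
  refine ⟨Y, ⟨dK, fun y j => h.YK j.1, ?_, fun y j => j.2, fun k a y j => ⟨?_, ?_⟩, fun y a y' b n n' => ?_,
    fun J l a b c => ?_, fun N l a b c => ?_, fun E l e => ?_⟩, iK, ?_, fun _ => Iff.rfl, lift⟩
  · rw [← h.cY]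
    refine Nat.card_eq_of_bijective (fun y : Y => (⟨ρ y, y.2.1⟩ : Y₀)) ⟨fun a b e => Subtype.ext
      (inj _ _ (congrArg Subtype.val e) a.2.2 b.2.2), fun y => ?_⟩
    obtain ⟨g, e, f⟩ := lift y (h.Y2 y y.2)
    exact ⟨⟨g, e ▸ y.2, f⟩, Subtype.ext e⟩
  · rw [map_mul, map_mul, map_inv]; exact h.nY _ a _ j.1
  · rw [conj_mul, j.2, mul_one, mul_inv_cancel]
  · obtain ⟨k, j, e⟩ := h.tr _ a.1 _ b.1 (fun e => n (k1 _ e a.2)) fun e => n' (k1 _ e b.2)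
    obtain ⟨k, rfl⟩ := sur k
    exact ⟨k, j, inj _ _ (by rw [map_mul, map_mul, map_inv, e]) (by rw [conj_mul, a.2, mul_one, mul_inv_cancel]) b.2⟩
  · rw [← cJ J b] at c ⊢
    rw [relIndex_comap, map_comap_eq_self_of_surjective sur] at c
    exact comap_mono (h.s1 _ (map_le_iff_le_comap.2 l) (Ym J a) (one_mem _) c)
  · refine (h.s2 (N.map ρ) (map_le_iff_le_comap.2 l) (Ym N a) (one_mem _) ?_).imp (fun q => cJ N b ▸ comap_mono q)
      fun q g j e => ⟨q _ ⟨g, j, rfl⟩ (by rw [← map_mul, e, map_one]), e⟩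
    rintro k j _ ⟨n, m, rfl⟩
    obtain ⟨k, rfl⟩ := sur k
    exact ⟨_, c k j n m, by rw [map_mul, map_mul, map_inv]⟩
  · have a1 := h.s3 (E.map ρ) (map_le_iff_le_comap.2 l) (by rintro _ ⟨g, j, rfl⟩; rw [← map_mul, e g j, map_one])
    have a2 := Nat.card_le_card_of_injective (fun g : E => (⟨ρ g, g, g.2, rfl⟩ : E.map ρ)) fun a b q =>
      Subtype.ext (inj _ _ (congrArg Subtype.val q) (e _ a.2) (e _ b.2))
    have a3 := card_le_of_le (show E.map ρ ⊓ Y₀ ≤ (E ⊓ Y).map ρ by rintro _ ⟨⟨g, j, rfl⟩, q⟩; exact ⟨g, ⟨j, q, e g j⟩, rfl⟩)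
    have a4 := Nat.le_of_dvd Nat.card_pos (card_map_dvd (E ⊓ Y) ρ)
    omega
  · have : (K₀.comap ρ).FiniteIndex := ⟨by rw [iK]; norm_num⟩
    have a1 := MonoidHom.transfer_eq_pow (Abelianization.of : K₀.comap ρ →* _) d fun k g _ => by
      rw [mul_assoc, ← ((show Commute g d from cen g).pow_right k).eq, inv_mul_cancel_left]
    rw [MonoidHom.mem_ker.1 (Abelianization.commutator_subset_ker (MonoidHom.transfer (Abelianization.of : K₀.comap ρ →* _)) dc),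
      eq_comm, ← MonoidHom.mem_ker, Abelianization.ker_of] at a1
    have a2 : d ^ (K₀.comap ρ).index ∈ ⁅K₀.comap ρ, K₀.comap ρ⁆ := map_subtype_commutator (K₀.comap ρ) ▸ ⟨_, a1, rfl⟩
    have a3 := pow_mem a2 2
    rwa [iK, ← pow_mul, show 77 * 2 = 3 * 51 + 1 from rfl, pow_succ, pow_mul, d3', one_pow, one_mul] at a3

theorem l2 : L2Stmt.{u} := fun {Γ} _ _ {d M} ρ {K₀ Y₀} d3 dM cen dc sur ker h => by
  obtain ⟨Y, a, b, c, mY, lift⟩ := core ρ (d := ⟨d, dM⟩) (Subtype.ext d3) (fun g => Subtype.ext (cen g g.2)) (by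
    obtain ⟨x, j, e⟩ := (map_subtype_commutator M).ge dc
    rwa [show x = ⟨d, dM⟩ from Subtype.ext e] at j) sur (fun m => (ker m).trans
      ⟨fun ⟨n, e⟩ => ⟨n, Subtype.ext e⟩, fun ⟨n, e⟩ => ⟨n, congrArg Subtype.val e⟩⟩) h.hx (relIndex_top_right K₀ ▸ h.iK)
  have mm : ∀ (J : Subgroup M) (g : M), (g : Γ) ∈ J.map M.subtype ↔ g ∈ J := fun J g => mem_map_iff_mem Subtype.val_injective
  have mK : ∀ g : M, (g : Γ) ∈ (K₀.comap ρ).map M.subtype ↔ ρ g ∈ K₀ := mm _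
  have kK : ∀ g : M, ρ g = 1 → (g : Γ) ∈ (K₀.comap ρ).map M.subtype := fun g e => (mK g).2 (e ▸ one_mem _)
  have KM := map_subtype_le (K₀.comap ρ)
  have ri : ∀ g : M, ((K₀.comap ρ).map M.subtype ⊓ cj (g : Γ) ((K₀.comap ρ).map M.subtype)).relIndex ((K₀.comap ρ).map M.subtype) =
      (K₀ ⊓ cj (ρ g) K₀).relIndex K₀ := fun g => by
    rw [← relIndex_comap, show ((K₀.comap ρ).map M.subtype ⊓ cj (g : Γ) ((K₀.comap ρ).map M.subtype)).comap M.subtype =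
      (K₀ ⊓ cj (ρ g) K₀).comap ρ from Subgroup.ext fun x => and_congr (mK x) (mem_cj.trans ((mK (g⁻¹ * x * g)).trans (by
        rw [map_mul, map_mul, map_inv]; exact mem_cj.symm))), relIndex_comap, map_comap_eq_self_of_surjective sur]
  refine ⟨_, _, ⟨JL.tp M.subtype Subtype.val_injective a, KM, ?_, fun x i e => ?_, ?_, ?_, fun J l l' => ?_, ?_⟩, ?_⟩
  · rw [relIndex, ← b]; congr; exact comap_map_eq_self_of_injective Subtype.val_injective _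
  · have e' : (⟨x, i⟩ : M) * ⟨x, i⟩ = 1 := Subtype.ext e
    obtain ⟨g, -, j⟩ := h.oc (ρ ⟨x, i⟩) trivial (by rw [← map_mul, e', map_one])
    obtain ⟨g, rfl⟩ := sur g
    exact ⟨g, g.2, (mm Y (g * ⟨x, i⟩ * g⁻¹)).2 ((mY _).2 ⟨by rwa [map_mul, map_mul, map_inv],
      by rw [conj_mul, e', mul_one, mul_inv_cancel]⟩)⟩
  · obtain ⟨g, -, y, j, n⟩ := h.nY
    obtain ⟨g, rfl⟩ := sur g
    obtain ⟨y, rfl, e⟩ := lift y (h.hx.Y2 y j)
    refine ⟨g, g.2, y, (mm Y y).2 ((mY y).2 ⟨j, e⟩), fun q => n ?_⟩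
    have := ((mY _).1 ((mm Y (g * y * g⁻¹)).1 q)).1
    rwa [map_mul, map_mul, map_inv] at this
  · obtain ⟨g0, -, o, p⟩ := h.orb
    obtain ⟨g0, rfl⟩ := sur g0
    refine ⟨g0, g0.2, (ri g0).trans o, fun g i => (p (ρ ⟨g, i⟩) trivial).imp (mK ⟨g, i⟩).2 (Or.imp ?_ (ri ⟨g, i⟩).trans)⟩
    rintro ⟨k, j, k', j', e⟩
    obtain ⟨k, rfl⟩ := sur k
    obtain ⟨k', rfl⟩ := sur k'
    refine ⟨_, mul_mem (kK (⟨g, i⟩ * (k * g0 * k')⁻¹) (by rw [map_mul, map_inv, map_mul, map_mul, ← e, mul_inv_cancel])) ((mK k).2 j),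
      k', (mK k').2 j', ?_⟩
    simp only [coe_mul, coe_inv]; group
  · refine (h.mx ((J.comap M.subtype).map ρ) (fun k j => ?_) le_top).imp (fun e => le_antisymm (fun g i => ?_) l)
      fun e => le_antisymm l' fun g i => ?_
    · obtain ⟨k, rfl⟩ := sur k
      exact ⟨k, l ((mK k).2 j), rfl⟩
    · exact (mK ⟨g, l' i⟩).2 (e.le ⟨_, i, rfl⟩)
    · obtain ⟨j, m, r⟩ := e.ge (mem_top (ρ ⟨g, i⟩))
      have := mul_mem (l (kK (⟨g, i⟩ * j⁻¹) (by rw [map_mul, map_inv, r, mul_inv_cancel]))) m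
      simpa using this
  · obtain ⟨φ, s, k⟩ := h.ph
    refine ⟨φ.comp ((ρ.comp (inclusion KM)).codRestrict K₀ fun x => (mK (inclusion KM x)).1 x.2), fun p => ?_, fun x => (k _).trans ⟨?_, ?_⟩⟩
    · obtain ⟨⟨p, j⟩, rfl⟩ := s p
      obtain ⟨p, rfl⟩ := sur p
      exact ⟨⟨p, (mK p).2 j⟩, rfl⟩
    · rintro ⟨y, j, i, e⟩
      obtain ⟨y, rfl, r⟩ := lift y (h.hx.Y2 y j)
      have e : ρ (inclusion KM x) = ρ y := by simpa using e
      obtain ⟨n, q⟩ := mem_powers_iff_mem_zpowers.2 ((ker (y⁻¹ * inclusion KM x)).1 (by rw [map_mul, map_inv, e, inv_mul_cancel]))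
      have q : d ^ n = (y : Γ)⁻¹ * x := q
      exact ⟨y, (mm Y y).2 ((mY y).2 ⟨j, r⟩), n, by rw [q, mul_inv_cancel_left]⟩
    · rintro ⟨_, ⟨y, j, rfl⟩, i, e⟩
      refine ⟨ρ y, ((mY y).1 j).1, 0, ?_⟩
      show ρ (inclusion KM x) = _
      rw [show inclusion KM x = y * ⟨d, dM⟩ ^ i from Subtype.ext e, map_mul, map_pow, (ker ⟨d, dM⟩).2 (mem_zpowers d), one_pow, pow_zero]
  · rw [← map_commutator]; exact ⟨_, c, rfl⟩

end Cfsg.Agent.H02.KL
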