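import Mathlib

/-! The principal ideal theorem in group-theoretic form (Furtwängler; proof after Witt). -/

namespace H02.PIT
open Subgroup MonoidAlgebra
open scoped TensorProduct

variable {G Q : Type*} [Group G] [Finite G] [CommGroup Q] [Finite Q]

theorem kill (π : G →* Q) (hπ : Function.Surjective π) (hk : π.ker ≤ commutator G)
    {Y : Type*} [AddCommGroup Y] [Module (MonoidAlgebra ℤ Q) Y] (δ : G → Y)
    (hδ : ∀ g h, δ (g * h) = δ g + of ℤ Q (π g) • δ h) :
    ∃ D : MonoidAlgebra ℤ Q, (lift ℤ ℤ Q 1 D).natAbs = Nat.card Q ∧ ∀ g, D • δ g = 0 := by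
  classical
  have := Fintype.ofFinite G
  set ε := lift ℤ ℤ Q 1
  let T : (G → MonoidAlgebra ℤ Q) →ₗ[MonoidAlgebra ℤ Q] Y := Fintype.linearCombination _ δ
  let J := (Submodule.pi Set.univ fun _ : G => RingHom.ker ε).map T
  let ψ : G →* Multiplicative (Y ⧸ J) := MonoidHom.mk' (fun g => .ofAdd (J.mkQ (δ g))) fun g h => by
    rw [← ofAdd_add, ← map_add]
    refine congrArg _ ((Submodule.Quotient.eq J).2 ⟨Pi.single h (of ℤ Q (π g) - 1), fun i _ => ?_, ?_⟩)
    · by_cases e : i = h
      · simp [e, ε]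
      · simp [e]
    · simp [T, hδ, sub_smul]
  have hψ : π.ker ≤ ψ.ker := hk.trans (Abelianization.commutator_subset_ker ψ)
  let ψ' := (π.liftOfSurjective hπ ⟨ψ, hψ⟩).toAdditiveLeft.toIntLinearMap
  let φ : (G → ℤ) →ₗ[ℤ] Additive Q := Fintype.linearCombination ℤ fun g => .ofMul (π g)
  have φs : Function.Surjective φ := fun q => by
    obtain ⟨g, hg⟩ := hπ q.toMul
    exact ⟨Pi.single g 1, by simp [φ, hg]⟩
  have e := φ.quotKerEquivOfSurjective φs
  haveI : Finite ((G → ℤ) ⧸ LinearMap.ker φ) := Finite.of_equiv _ e.symm.toEquiv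
  have rk := (Submodule.finiteQuotient_iff _).1 this
  let b : Module.Basis G ℤ (LinearMap.ker φ) := (Module.finBasisOfFinrankEq ℤ _ rk).reindex
    (Fintype.equivFinOfCardEq (by simp)).symm
  have hd := Submodule.natAbs_det_basis_change (Pi.basisFun ℤ G) _ b
  have : ∀ i, ∃ ν ∈ Submodule.pi Set.univ fun _ : G => RingHom.ker ε,
      T ν = T fun j => ((b i).1 j : MonoidAlgebra ℤ Q) := fun i => by
    refine (Submodule.Quotient.mk_eq_zero J).1 ?_
    have := congrArg ψ' (b i).2
    simp only [φ, Fintype.linearCombination_apply, map_sum, map_zsmul, map_zero] at this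
    rw [← this, ← Submodule.mkQ_apply]
    simp [T, Fintype.linearCombination_apply, Int.cast_smul_eq_zsmul, ψ', ψ]
  choose ν h1 h2 using this
  let μ : Matrix G G (MonoidAlgebra ℤ Q) := fun i j => ((b i).1 j : MonoidAlgebra ℤ Q) - ν i j
  refine ⟨μ.det, ?_, fun g => ?_⟩
  · rw [← Nat.card_congr e.toEquiv |>.trans (Nat.card_congr Additive.toMul), ← hd, AlgHom.map_det,
      Module.Basis.det_apply, ← Matrix.det_transpose]
    congr 2; ext i j
    have : ε (ν j i) = 0 := h1 j i trivial
    change ε (_ - _) = _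
    simp [this, Module.Basis.toMatrix_apply]
  · have h3 : ∀ i, T (μ i) = 0 := fun i => by rw [← sub_self (T (ν i))]; nth_rw 1 [h2]; rw [← map_sub]; rfl
    have : T ((μ.adjugate * μ) g) = 0 := by
      have : (μ.adjugate * μ) g = ∑ i, μ.adjugate g i • μ i := by ext1 j; simp [Matrix.mul_apply]
      simp [this, h3]
    rw [Matrix.adjugate_mul] at this
    simpa [T, Fintype.linearCombination_apply, Matrix.one_apply] using this

theorem main [Fintype Q] (π : G →* Q) (hπ : Function.Surjective π) (hk : π.ker ≤ commutator G)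
    {B : Type*} [AddCommGroup B] (c : G → Q → B)
    (hc : ∀ g h q, c (g * h) q = c g q + c h ((π g)⁻¹ * q)) (g : G) : ∑ q, c g q = 0 := by
  obtain ⟨D, h1, h2⟩ := kill π hπ hk (Y := (MonoidAlgebra ℤ Q ⊗[ℤ] B) × MonoidAlgebra ℤ Q)
    (fun g => (∑ q, of ℤ Q q ⊗ₜ c g q, of ℤ Q (π g) - 1)) fun g h => by
      refine Prod.ext ?_ (by simp only [map_mul, Prod.snd_add, Prod.smul_snd, smul_eq_mul]; ring)
      simp only [hc, TensorProduct.tmul_add, Finset.sum_add_distrib, Prod.fst_add, Prod.smul_fst,
        Finset.smul_sum, TensorProduct.smul_tmul', smul_eq_mul, ← map_mul]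
      congr 1
      exact Fintype.sum_equiv (Equiv.mulLeft (π g)⁻¹) _ _ fun q => by simp
  have h3 : ∀ q, D * of ℤ Q q = D := fun q => by
    obtain ⟨g, rfl⟩ := hπ q
    have := congrArg Prod.snd (h2 g)
    simpa [mul_sub, sub_eq_zero] using this
  have h4 : ∀ q, D.coeff q = D.coeff 1 := fun q => by
    rw [← h3 q]; nth_rw 2 [h3]; simp
  have h5 : (D.coeff 1).natAbs = 1 := by
    rw [lift_apply, Finsupp.sum_fintype _ _ (by simp)] at h1
    simp only [h4, MonoidHom.one_apply, smul_eq_mul, mul_one, Finset.sum_const, Finset.card_univ,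
      nsmul_eq_mul, Int.natAbs_mul, Int.natAbs_natCast, Nat.card_eq_fintype_card] at h1
    exact Nat.eq_of_mul_eq_mul_left Fintype.card_pos (h1.trans (mul_one _).symm)
  have h6 := congrArg Prod.fst (h2 g)
  simp only [Prod.smul_fst, Finset.smul_sum, TensorProduct.smul_tmul', smul_eq_mul, h3,
    ← TensorProduct.tmul_sum, Prod.fst_zero] at h6
  have := congrArg (fun x => TensorProduct.lid ℤ B (TensorProduct.map
    ((Finsupp.lapply (1 : Q)).comp (coeffLinearEquiv ℤ).toLinearMap) LinearMap.id x)) h6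
  rcases Int.natAbs_eq_iff.1 h5 with e | e <;> simpa [e] using this

theorem pit : MonoidHom.transfer (Abelianization.of : commutator G →* Abelianization (commutator G)) =
      (1 : G →* Abelianization (commutator G)) := by
  ext g
  let T : (commutator G).LeftTransversal := default
  let _ : Fintype (Abelianization G) := (commutator G).fintypeQuotientOfFiniteIndex
  let s : Abelianization G → G := fun q => T.2.leftQuotientEquiv q
  have hs : ∀ q, Abelianization.of (s q) = q := fun q => T.2.leftQuotientEquiv.symm_apply_apply q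
  have hm : ∀ g q, (s q)⁻¹ * (g * s ((Abelianization.of g)⁻¹ * q)) ∈ commutator G := fun g q => by
    rw [← Abelianization.ker_of, MonoidHom.mem_ker]; simp [hs]
  have := main Abelianization.of (QuotientGroup.mk'_surjective _) (Abelianization.ker_of G).le
    (fun g q => Additive.ofMul (Abelianization.of (⟨_, hm g q⟩ : commutator G))) (fun g h q => by
      rw [← ofMul_mul, ← map_mul]; congr 2; simp [mul_assoc, mul_left_comm]) g
  rw [← ofMul_prod] at this
  rw [MonoidHom.transfer_def _ T]
  refine Eq.trans (Finset.prod_congr rfl fun q _ => congrArg _ (Subtype.ext ?_)) this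
  simp only [smul_apply_eq_smul_apply_inv_smul, smul_eq_mul]
  congr 4

end H02.PIT
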