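import Cfsg.Agent.H26.Qa1

set_option autoImplicit false
set_option linter.unusedSectionVars false

open BG Cfsg H22 Subgroup Cfsg.Agent.H26.Qa

namespace Cfsg.Agent.H02.QaA

universe u
variable {G : Type u} [Group G] [Finite G]

theorem odd_pow (k : ℤ) (hk : Odd k) (j : ℕ) : (2 : ℤ) ^ (j + 3) ∣ k ^ 2 ^ (j + 1) - 1 := by
  induction j with
  | zero =>
    obtain ⟨m, rfl⟩ := hk
    obtain ⟨r, hr⟩ := Int.even_mul_succ_self m
    exact ⟨r, by norm_num; linear_combination 4 * hr⟩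
  | succ j ih =>
    obtain ⟨r, hr⟩ := ih
    have : k ^ 2 ^ (j + 1) = 1 + 2 ^ (j + 3) * r := by linear_combination hr
    refine ⟨r + 2 ^ (j + 2) * r ^ 2, ?_⟩
    rw [pow_succ 2 (j + 1), pow_mul, this]; ring

theorem conj_iter {s b : G} {k : ℤ} (h : s * b * s⁻¹ = b ^ k) (m : ℕ) : s ^ m * b * (s ^ m)⁻¹ = b ^ k ^ m := by
  induction m with
  | zero => simp
  | succ m ih =>
    calc s ^ (m + 1) * b * (s ^ (m + 1))⁻¹ = s ^ m * (s * b * s⁻¹) * (s ^ m)⁻¹ := by group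
      _ = (s ^ m * b * (s ^ m)⁻¹) ^ k := by rw [h, conj_zpow]
      _ = b ^ k ^ (m + 1) := by rw [ih, ← zpow_mul, pow_succ]

theorem act_triv {B : Subgroup G} {s : G} {j : ℕ} (hB : IsCyclic B) (hc : Nat.card B = 2 ^ (j + 3)) (hs : s ∈ N_(B))
    {y : G} (hy : y ∈ B) : Commute (s ^ 2 ^ (j + 1)) y := by
  obtain ⟨b, rfl⟩ := cyclic_iff.1 hB
  rw [Nat.card_zpowers] at hc
  obtain ⟨k, hk⟩ := mem_zpowers_iff.1 (conj_mem_of_norm hs (mem_zpowers b))
  have ko : Odd k := by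
    rw [← Int.not_even_iff_odd]
    rintro ⟨r, rfl⟩
    have h1 : (s * b * s⁻¹) ^ 2 ^ (j + 2) = 1 := by
      rw [← hk, ← zpow_natCast, ← zpow_mul, ← orderOf_dvd_iff_zpow_eq_one, hc]
      exact ⟨r, by push_cast; ring⟩
    rw [conj_pow] at h1
    have h2 : b ^ 2 ^ (j + 2) = 1 := by simpa using h1
    rw [← orderOf_dvd_iff_pow_eq_one, hc, Nat.pow_dvd_pow_iff_le_right (by norm_num)] at h2
    omega
  have h3 := conj_iter hk.symm (2 ^ (j + 1))
  have h4 : b ^ k ^ 2 ^ (j + 1) = b := by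
    have : b ^ (k ^ 2 ^ (j + 1) - 1) = 1 := by
      rw [← orderOf_dvd_iff_zpow_eq_one, hc]; exact_mod_cast odd_pow k ko j
    rw [zpow_sub_one] at this
    exact mul_inv_eq_one.1 this
  rw [h4] at h3
  obtain ⟨i, rfl⟩ := mem_zpowers_iff.1 hy
  exact (show Commute _ b from mul_inv_eq_iff_eq_mul.1 h3).zpow_right i

theorem case1a {n : ℕ} {J K S T : Subgroup G} {z t y a : G} (h : Cf n J K z t y S T) (y2 : y * y ∈ N_(J))
    (g : Gd J z S a) (ya : y * y * a = a * (y * y)) : a ∉ N_(K) := by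
  intro aN
  have hJ := h.hJ
  have hK := h.hK
  obtain ⟨i0, hi0⟩ := hK.pw (mul_mem h.yT h.yT) (mul_mem h.yK h.yK) h.y1
  have cyy : ∀ x, x * (y * y) = y * y * x → x * t = t * x := fun x hx => by
    rw [← hi0]; exact (show Commute x (y * y) from hx).pow_right i0
  have aT : a ∈ T := h.toT g.s (cyy a ya.symm)
  have yz : y * z = z * y := hJ.cz h.yS
  have yt : y * t = t * y := hK.cz h.yT
  have az : a * z = z * a := hJ.cz g.s
  set a' := y * a * y⁻¹ with ha'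
  have ca' : ∀ q ∈ S, q ∈ J → q * a' = a' * q := fun q q1 q2 => hJ.mvcom g.s g.l h.yS h.mv q1 q2
  have e0 : y⁻¹ * a * y = a' := by
    calc y⁻¹ * a * y = y⁻¹ * (a * (y * y)) * y⁻¹ := by group
      _ = a' := by rw [← ya, ha']; group
  have e1 : y⁻¹ * (a * y * a⁻¹) = a' * a⁻¹ := by rw [← e0]; group
  have a'2 : a' * a' = z := by
    rw [ha', show y * a * y⁻¹ * (y * a * y⁻¹) = y * (a * a) * y⁻¹ by group, g.sq, hJ.fx h.yS]
  have caa : Commute a a' := ca' a g.s g.l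
  have et : a' * a⁻¹ = t := by
    refine (hK.uq _ (e1 ▸ mul_mem (inv_mem h.yK) (conj_mem_of_norm aN h.yK)) ?_).resolve_left fun e => ?_
    · calc a' * a⁻¹ * (a' * a⁻¹) = a' * (a⁻¹ * a') * a⁻¹ := by group
        _ = (a' * a') * (a * a)⁻¹ := by rw [caa.inv_left.eq]; group
        _ = 1 := by rw [a'2, g.sq]; group
    · have e' : a' = a := mul_inv_eq_one.1 e
      exact hJ.nesq g.sq (hJ.cen g.s g.l fun q q1 q2 => e' ▸ ca' q q1 q2)
  have yat : a * y * a⁻¹ = y * t := by rw [← et, ← e1]; group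
  obtain ⟨b, b1, b2, b3⟩ := hJ.exinv g.sq g.s g.l
  have bt : b * t * b⁻¹ = t * z := by
    calc b * t * b⁻¹ = (b * a') * b⁻¹ * (b * a * b⁻¹)⁻¹ := by rw [← et]; group
      _ = a' * a := by rw [ca' b b1 b2, b3]; group
      _ = t * z := by rw [← et, ← g.sq]; group
  set b' := y * b * y⁻¹ with hb'
  have b'S : b' ∈ S := mul_mem (mul_mem h.yS b1) (inv_mem h.yS)
  have cb' : ∀ q ∈ S, q ∈ J → q * b' = b' * q := fun q q1 q2 => hJ.mvcom b1 b2 h.yS h.mv q1 q2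
  have b't : b' * t * b'⁻¹ = t * z := by
    calc b' * t * b'⁻¹ = y * (b * (y⁻¹ * (t * y)) * b⁻¹) * y⁻¹ := by rw [hb']; group
      _ = y * (b * t * b⁻¹) * y⁻¹ := by rw [← yt]; group
      _ = y * t * (z * y⁻¹) := by rw [bt]; group
      _ = t * (y * z) * y⁻¹ := by rw [yt]; group
      _ = t * z := by rw [yz]; group
  set v := b * b' with hv
  have vS : v ∈ S := mul_mem b1 b'S
  have vT : v ∈ T := by
    refine h.toT vS (mul_inv_eq_iff_eq_mul.1 ?_)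
    calc v * t * v⁻¹ = b * (b' * t * b'⁻¹) * b⁻¹ := by rw [hv]; group
      _ = (b * t * b⁻¹) * (b * z * b⁻¹) := by rw [b't]; group
      _ = t := by rw [bt, hJ.fx b1, mul_assoc, hJ.sq, mul_one]
  set b'' := y * y * b * (y * y)⁻¹ with hb''
  have b''S : b'' ∈ S := mul_mem (mul_mem (mul_mem h.yS h.yS) b1) (inv_mem (mul_mem h.yS h.yS))
  have b''J : b'' ∈ J := conj_mem_of_norm y2 b2
  have ec : y * (v * y * v⁻¹)⁻¹ = b'' * b⁻¹ := by
    calc y * (v * y * v⁻¹)⁻¹ = (b' * b'') * b'⁻¹ * b⁻¹ := by rw [hv, hb', hb'']; group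
      _ = b'' * b⁻¹ := by rw [← cb' b'' b''S b''J]; group
  have c1 : b'' * b⁻¹ ≠ 1 := by
    intro e
    have e' : b'' = b := mul_inv_eq_one.1 e
    have := cyy b (mul_inv_eq_iff_eq_mul.1 e').symm
    rw [this, mul_inv_cancel_right] at bt
    exact hJ.ne (by simpa using bt.symm)
  obtain ⟨i, hi⟩ := hJ.pw (mul_mem b''S (inv_mem b1)) (mul_mem b''J (inv_mem b2)) c1
  rw [← ec] at hi
  have vN : v ∉ N_(K) := fun e => by
    have : z ∈ K := hi ▸ pow_mem (mul_mem h.yK (inv_mem (conj_mem_of_norm e h.yK))) i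
    rcases hK.uq z this hJ.sq with e | e
    exacts [hJ.ne e, h.ne e]
  have cyv : Commute y (v * y * v⁻¹) := hK.mvcom h.yT h.yK vT vN h.yT h.yK
  rw [cyv.inv_right.mul_pow, inv_pow, conj_pow] at hi
  set y0 := y ^ i with hy0
  have y0T : y0 ∈ T := pow_mem h.yT i
  have y0K : y0 ∈ K := pow_mem h.yK i
  have cy0 : ∀ q ∈ T, q ∈ K → Commute q (v * y0 * v⁻¹) := fun q q1 q2 => hK.mvcom y0T y0K vT vN q1 q2
  have y0t : y0 * y0 = t := by
    have k1 : y0 * y0 = v * (y0 * y0) * v⁻¹ := by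
      have := hJ.sq
      rw [← hi] at this
      have c := (cy0 y0 y0T y0K).inv_right.eq
      have k : y0 * y0 * (v * (y0 * y0) * v⁻¹)⁻¹ = 1 := by
        calc y0 * y0 * (v * (y0 * y0) * v⁻¹)⁻¹ = y0 * (y0 * (v * y0 * v⁻¹)⁻¹) * (v * y0 * v⁻¹)⁻¹ := by group
          _ = 1 := by rw [c, ← this]; group
      exact mul_inv_eq_one.1 k
    refine (hK.int (hK.cj vT) (mvne vN) (mul_mem y0T y0T) (mul_mem y0K y0K)
      (k1 ▸ conj_mem_cj v (mul_mem y0K y0K))).resolve_left fun e => hJ.ne ?_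
    rw [← hi]
    rcases hK.uq y0 y0K e with e | e
    · rw [e]; group
    · rw [e, hK.fx vT]; group
  have g0 : Gd K t T y0 := h.toPr.symm.gdE (hK.cj vT).toOm (mvne vN) y0T y0K y0t
    (inv_mem (mul_mem (mul_mem vT y0T) (inv_mem vT))) (inv_mem (conj_mem_cj v y0K)) hi.symm
  have eB : T ⊓ K ⊓ C_[y0] = T ⊓ K ⊓ C_[z] := by
    ext q
    simp only [mem_inf, mem_cent1]
    refine and_congr_right fun hq => ?_
    have c := (cy0 q hq.1 hq.2).inv_right
    rw [← hi]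
    constructor
    · intro e; exact (Commute.mul_right e c).eq
    · intro e
      have := (Commute.mul_right e c.inv_right).eq
      simpa [mul_assoc] using this
  have cB := hK.cardC g0
  have cyB := hK.cy y0T y0K (hK.nesq y0t)
  rw [eB] at cB cyB
  set B := T ⊓ K ⊓ C_[z] with hB
  have yB : y ∈ B := ⟨⟨h.yT, h.yK⟩, mem_cent1.2 yz⟩
  have nB : ∀ x ∈ T, x ∈ S → x ∈ N_(K) → x ∈ N_(B) := fun x x1 x2 x3 =>
    (norm_inf (norm_inf (norm_of_le (zpowers_le.2 x1)) (zpowers_le.2 x3))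
      (norm_cent1 (zpowers_le.2 (hJ.sy.le x2)))) (mem_zpowers x)
  have cA := hJ.cardC g
  obtain ⟨s, hs⟩ := cyclic_iff.1 (hJ.cy g.s g.l (hJ.nesq g.sq))
  have s0 : s ∈ S ⊓ J ⊓ C_[a] := hs ▸ mem_zpowers s
  have sT : s ∈ T := by
    refine h.toT s0.1.1 ?_
    rw [← et]
    exact (Commute.mul_right (ca' s s0.1.1 s0.1.2) (show Commute s a from mem_cent1.1 s0.2).inv_right).eq
  obtain ⟨m, hm⟩ : ∃ m : ℕ, s ^ m = a := by
    have : a ∈ zpowers s := hs ▸ (⟨⟨g.s, g.l⟩, mem_cent1_self a⟩ : a ∈ S ⊓ J ⊓ C_[a])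
    exact (mem_powers_iff_mem_zpowers.2 this)
  have sN : s ∈ N_(K) := by
    by_contra e
    have c : Commute s (y⁻¹ * s * y⁻¹⁻¹) :=
      hJ.mvcom s0.1.1 s0.1.2 (inv_mem h.yS) (fun e => h.mv (by simpa using inv_mem e)) s0.1.1 s0.1.2
    have k : (y⁻¹ * (s * y * s⁻¹)) ^ m = t := by
      rw [show y⁻¹ * (s * y * s⁻¹) = (y⁻¹ * s * y⁻¹⁻¹) * s⁻¹ by group, c.symm.inv_right.mul_pow, conj_pow, inv_pow,
        hm, inv_inv, e0, et]
    exact hK.ne (k ▸ (hK.mvpw h.yT h.yK sT e (k ▸ hK.mem)).2)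
  have yne : a * y ≠ y * a := fun e => by
    rw [e, mul_inv_cancel_right] at yat
    exact hK.ne (by simpa using yat.symm)
  rw [← hs, Nat.card_zpowers] at cA
  have ypow := pow_card_eq_one yB
  rcases n with _ | _ | _ | _ | j
  · omega
  · rw [show Nat.card B = 1 by omega, pow_one] at ypow
    exact h.y1 (by rw [ypow, one_mul])
  · rw [show Nat.card B = 2 by omega, pow_two] at ypow
    exact h.y1 ypow
  · have c4 : Nat.card B = 4 := by omega
    rw [c4] at ypow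
    have yy : y * y = t := (hK.uq _ (mul_mem h.yK h.yK) (by rw [← ypow]; simp [pow_succ, mul_assoc])).resolve_left h.y1
    have zy : zpowers y = B := eq_of_le_of_card_eq (zpowers_le.2 yB) (by rw [Nat.card_zpowers, hK.ord4 yy, c4])
    have inv : ∀ β ∈ B, a * β * a⁻¹ = β⁻¹ := fun β hβ => by
      rw [← zy] at hβ
      obtain ⟨k, rfl⟩ := mem_zpowers_iff.1 hβ
      rw [← conj_zpow, yat, ← hK.inv4 yy, inv_zpow]
    have y0B : y0 ∈ B := pow_mem yB i
    obtain ⟨u, u1, u2, u3⟩ := hK.exinv y0t y0T y0K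
    have βB : u⁻¹ * (a * u * a⁻¹) ∈ B := by
      rw [← eB]
      refine ⟨⟨T.mul_mem (T.inv_mem u1) (T.mul_mem (T.mul_mem aT u1) (T.inv_mem aT)),
        K.mul_mem (K.inv_mem u2) (conj_mem_of_norm aN u2)⟩, mem_cent1.2 (mul_inv_eq_iff_eq_mul.1 ?_)⟩
      have k1 := inv y0 y0B
      have k2 : a⁻¹ * y0 * a = y0⁻¹ := by
        calc a⁻¹ * y0 * a = a⁻¹ * (y0⁻¹)⁻¹ * a := by group
          _ = y0⁻¹ := by nth_rewrite 1 [← k1]; group
      calc u⁻¹ * (a * u * a⁻¹) * y0 * (u⁻¹ * (a * u * a⁻¹))⁻¹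
          = u⁻¹ * (a * (u * (a⁻¹ * y0 * a) * u⁻¹) * a⁻¹) * u := by group
        _ = u⁻¹ * (a * (u * y0 * u⁻¹)⁻¹ * a⁻¹) * u := by rw [k2]; group
        _ = u⁻¹ * (u * y0 * u⁻¹) * u := by rw [u3, inv_inv, k1]
        _ = y0 := by group
    have k3 := inv _ βB
    have uz : u * z = z * u := by
      have : z * u * z⁻¹ = u := by
        calc z * u * z⁻¹ = (a * u * a⁻¹) * (a * (u⁻¹ * (a * u * a⁻¹)) * a⁻¹) := by rw [← g.sq]; group
          _ = u := by rw [k3]; group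
      exact (mul_inv_eq_iff_eq_mul.1 this).symm
    have uB : u ∈ T ⊓ K ⊓ C_[y0] := eB ▸ (⟨⟨u1, u2⟩, mem_cent1.2 uz⟩ : u ∈ B)
    refine hK.ne4 y0t ?_
    rw [← u3, mem_cent1.1 uB.2]; group
  · have c1 : Nat.card B = 2 ^ (j + 3) := by rw [pow_succ] at cB; omega
    have c2 : orderOf s = 2 ^ (j + 3) := by rw [pow_succ] at cA; omega
    have d : 2 ^ (j + 3) ∣ m * 4 := by
      rw [← c2, orderOf_dvd_iff_pow_eq_one, pow_mul, hm, ← hJ.ord4 g.sq, pow_orderOf_eq_one]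
    obtain ⟨r, hr⟩ : 2 ^ (j + 1) ∣ m :=
      Nat.dvd_of_mul_dvd_mul_right (by norm_num : 0 < 4) (by rwa [show 2 ^ (j + 1) * 4 = 2 ^ (j + 3) by ring])
    apply yne
    rw [← hm, hr, pow_mul]
    exact ((act_triv cyB c1 (nB s sT s0.1.1 sN) yB).pow_left r).eq

end Cfsg.Agent.H02.QaA
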