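import Mathlib
import Cfsg.Agent.L.Js0

/-! Part `F` of the 7-local cluster. -/

set_option autoImplicit false
open Cfsg BG Subgroup

namespace Cfsg.Agent.H02.S7F
universe u

theorem mc {G : Type u} [Group G] (a b : G) : a ∈ C_[b] ↔ b * a = a * b := by simp [mem_centralizer_iff]

theorem orb {G : Type u} [Group G] [Finite G] (H : Subgroup G) (z : G) :
    Nat.card ↥(C_[z] ⊓ H) * {x | ∃ h ∈ H, h * z * h⁻¹ = x}.ncard = Nat.card H := by
  letI : MulAction H G :=
    { smul := fun h x => h * x * (h : G)⁻¹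
      one_smul := fun x => by
        show ((1 : H) : G) * x * ((1 : H) : G)⁻¹ = x
        simp
      mul_smul := fun a b x => by
        show ((a * b : H) : G) * x * ((a * b : H) : G)⁻¹ = a * (b * x * (b : G)⁻¹) * (a : G)⁻¹
        simp [mul_assoc] }
  have c := (MulAction.stabilizer H z).card_mul_index
  have e1 : MulAction.stabilizer H z = (C_[z] ⊓ H).subgroupOf H := by
    ext h
    rw [mem_subgroupOf, mem_inf, mc, MulAction.mem_stabilizer_iff]
    show h * z * (h : G)⁻¹ = z ↔ _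
    rw [mul_inv_eq_iff_eq_mul]
    exact ⟨fun e => ⟨e.symm, h.2⟩, fun e => e.1.symm⟩
  have e2 : MulAction.orbit H z = {x | ∃ h ∈ H, h * z * h⁻¹ = x} := by
    ext x
    exact ⟨fun ⟨h, e⟩ => ⟨h, h.2, e⟩, fun ⟨h, m, e⟩ => ⟨⟨h, m⟩, e⟩⟩
  rw [MulAction.index_stabilizer, e1, e2, Nat.card_congr (subgroupOfEquivOfLe inf_le_right).toEquiv] at c
  exact c

theorem f : L.Js.FStmt.{u} := by
  intro G _ _ σ z U hX o7 o2 zσ hw Uσ cU hU h3 c252
  classical
  have : Fact (Nat.Prime 7) := ⟨by norm_num⟩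
  have : Fact (Nat.Prime 2) := ⟨by norm_num⟩
  have σ7 : σ ^ 7 = 1 := o7 ▸ pow_orderOf_eq_one σ
  have eC : C_(zpowers σ) = C_[σ] := by
    ext x
    rw [mc, mem_centralizer_iff]
    refine ⟨fun h => h σ (mem_zpowers σ), ?_⟩
    rintro h _ ⟨k, rfl⟩
    exact (show Commute σ x from h).zpow_left k
  let s : C_[σ] := ⟨σ, (mc _ _).2 rfl⟩
  have sc : ∀ x : C_[σ], Commute s x := fun x => Subtype.ext ((mc _ _).1 x.2)
  have zc : ∀ k ∈ zpowers s, ∀ x : C_[σ], Commute k x := by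
    rintro _ ⟨k, rfl⟩ x
    exact (sc x).zpow_left k
  have nZ : (zpowers s).Normal := ⟨fun k hk g => by rw [← (zc k hk g).eq, mul_inv_cancel_right]; exact hk⟩
  have cZ : Nat.card (zpowers s) = 7 := by rw [Nat.card_zpowers, ← orderOf_coe, o7]
  have k7 : ∀ k ∈ zpowers s, k ^ 7 = 1 := fun k hk => by
    have := pow_card_eq_one' (x := (⟨k, hk⟩ : zpowers s))
    rw [cZ] at this
    exact congrArg Subtype.val this
  have k2 : ∀ k ∈ zpowers s, k ^ 2 = 1 → k = 1 := fun k hk h => by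
    have := k7 k hk
    rwa [show 7 = 2 * 3 + 1 from rfl, pow_succ, pow_mul, h, one_pow, one_mul] at this
  let π := QuotientGroup.mk' (zpowers s)
  have πs : Function.Surjective π := QuotientGroup.mk'_surjective _
  have πk : ∀ x, π x = 1 ↔ x ∈ zpowers s := fun x => QuotientGroup.eq_one_iff x
  have lift : ∀ a b : C_[σ], a ^ 2 = 1 → b ^ 2 = 1 → π a = π b → a = b := fun a b ha hb e => by
    have m : a⁻¹ * b ∈ zpowers s := (πk _).1 (by rw [map_mul, map_inv, e, inv_mul_cancel])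
    have e2 : b = a * (a⁻¹ * b) := by group
    rw [e2, (zc _ m a).symm.mul_pow, ha, one_mul] at hb
    exact inv_mul_eq_one.1 (k2 _ m hb)
  have cX := card_eq_card_quotient_mul_card_subgroup (zpowers s)
  rw [cZ] at cX
  have cc : ∀ w : C_[σ], w ^ 2 = 1 → Nat.card ↥(C_[(w : G)] ⊓ C_[σ]) = 7 * Nat.card C_[π w] := fun w h => by
    have e : C_[π w].comap π = (C_[(w : G)] ⊓ C_[σ]).subgroupOf C_[σ] := by
      ext x
      rw [mem_comap, mc, mem_subgroupOf, mem_inf, mc]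
      constructor
      · intro e
        have := lift (x * w * x⁻¹) w (by rw [conj_pow, h]; simp) h
          (by rw [map_mul, map_mul, map_inv, ← e, mul_inv_cancel_right])
        exact ⟨(congrArg Subtype.val (mul_inv_eq_iff_eq_mul.1 this)).symm, x.2⟩
      · intro e
        rw [← map_mul, ← map_mul]
        exact congrArg π (Subtype.ext e.1)
    have h1 := (C_[π w].comap π).card_mul_index
    have h2 := C_[π w].card_mul_index
    rw [index_comap_of_surjective _ πs, e, Nat.card_congr (subgroupOfEquivOfLe inf_le_right).toEquiv, cX, ← h2] at h1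
    exact Nat.eq_of_mul_eq_mul_right (Nat.pos_of_ne_zero (index_ne_zero_of_finite (H := C_[π w]))) (by rw [h1]; ring)
  have sq : ∀ w : C_[σ], orderOf (w : G) = 2 → w ^ 2 = 1 := fun w h =>
    Subtype.ext (show (w : G) ^ 2 = 1 from h ▸ pow_orderOf_eq_one (w : G))
  have oπ : ∀ w : C_[σ], orderOf (w : G) = 2 → orderOf (π w) = 2 := fun w h =>
    orderOf_eq_prime (by rw [← map_pow, sq w h, map_one]) fun e => by
      have := k2 w ((πk w).1 e) (sq w h)
      rw [this] at h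
      simp at h
  have d3 : ∀ n : ℕ, 3 ∣ 7 * n → 3 ∣ n := fun n h => by omega
  obtain ⟨⟨e⟩, c12, cj⟩ := hX ((U.subgroupOf C_[σ]).map π) (π ⟨z, zσ⟩) (fun w hw' => by
      obtain ⟨x, rfl⟩ := πs w
      have x2 : π x ^ 2 = 1 := hw' ▸ pow_orderOf_eq_one _
      have e7 : π (x ^ 7) = π x := by
        rw [map_pow, show 7 = 2 * 3 + 1 from rfl, pow_succ, pow_mul, x2, one_pow, one_mul]
      have y2 : (x ^ 7) ^ 2 = 1 := by
        rw [← pow_mul, mul_comm, pow_mul]
        exact k7 _ ((πk _).1 (by rw [map_pow, x2]))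
      have oy : orderOf ((x ^ 7 : C_[σ]) : G) = 2 := by
        rw [orderOf_coe]
        refine orderOf_eq_prime y2 fun h => ?_
        rw [← e7, h, map_one, orderOf_one] at hw'
        omega
      have := hw _ (x ^ 7).2 oy
      rw [cc _ y2, e7] at this
      exact this.imp (fun h => Nat.dvd_of_mul_dvd_mul_left (by norm_num : 0 < 7) h)
        fun h => ⟨d3 _ h.1, Nat.dvd_of_mul_dvd_mul_left (by norm_num : 0 < 7) h.2⟩)
    (by
      rw [← cU, ← Nat.card_congr (subgroupOfEquivOfLe Uσ).toEquiv]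
      have u2 : ∀ w ∈ U.subgroupOf C_[σ], w ^ 2 = 1 := fun w hw' => by
        by_cases h : (w : G) = 1
        · rw [show w = 1 from Subtype.ext h, one_pow]
        · exact sq w (hU w hw' h).1
      refine (Nat.card_congr (Equiv.ofBijective (fun x : U.subgroupOf C_[σ] =>
        (⟨π x, x, x.2, rfl⟩ : (U.subgroupOf C_[σ]).map π)) ⟨fun a b h => Subtype.ext (lift _ _ (u2 _ a.2) (u2 _ b.2)
          (congrArg Subtype.val h)), ?_⟩)).symm
      rintro ⟨_, x, hx, rfl⟩
      exact ⟨⟨x, hx⟩, rfl⟩)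
    (by
      rintro _ ⟨w, hw', rfl⟩ n
      have h := hU w hw' fun h => n (by rw [show w = 1 from Subtype.ext h, map_one])
      have := h.2
      rw [cc _ (sq w h.1)] at this
      exact ⟨oπ w h.1, Nat.dvd_of_mul_dvd_mul_left (by norm_num : 0 < 7) this⟩)
    (oπ ⟨z, zσ⟩ o2) (d3 _ (cc ⟨z, zσ⟩ (sq _ o2) ▸ h3))
  have c120 : Nat.card (C_[σ] ⧸ zpowers s) = 120 := by
    rw [Nat.card_congr e.toEquiv, Nat.card_perm, Nat.card_fin]; rfl
  rw [c120] at cX
  have c84 : Nat.card ↥(C_[z] ⊓ C_[σ]) = 84 := by rw [cc ⟨z, zσ⟩ (sq _ o2), c12]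
  have nC : ∀ n ∈ N_(zpowers σ), ∀ x ∈ C_[σ], n * x * n⁻¹ ∈ C_[σ] := fun n hn x hx => by
    have h1 : n⁻¹ * σ * n ∈ zpowers σ := (mem_normalizer_iff''.1 hn σ).1 (mem_zpowers σ)
    rw [← eC] at hx
    have := mem_centralizer_iff.1 hx _ h1
    rw [mc]
    calc σ * (n * x * n⁻¹) = n * (n⁻¹ * σ * n * x) * n⁻¹ := by group
      _ = n * (x * (n⁻¹ * σ * n)) * n⁻¹ := by rw [this]
      _ = _ := by group
  have CN : C_[σ] ≤ N_(zpowers σ) := eC ▸ centralizer_le_normalizer _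
  have eo : {x | ∃ h ∈ N_(zpowers σ), h * z * h⁻¹ = x} = {x | ∃ h ∈ C_[σ], h * z * h⁻¹ = x} := by
    ext x
    refine ⟨?_, fun ⟨h, m, e⟩ => ⟨h, CN m, e⟩⟩
    rintro ⟨n, hn, rfl⟩
    have on : orderOf (n * z * n⁻¹) = 2 := o2 ▸ (MulAut.conj n).orderOf_eq z
    let w : C_[σ] := ⟨n * z * n⁻¹, nC n hn z zσ⟩
    have dv : Nat.card ↥(C_[z] ⊓ C_[σ]) ∣ Nat.card ↥(C_[(w : G)] ⊓ C_[σ]) := by
      rw [← card_map_of_injective (f := (MulAut.conj n).toMonoidHom) (MulAut.conj n).injective]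
      refine card_dvd_of_le ?_
      rintro _ ⟨x, hx, rfl⟩
      refine mem_inf.2 ⟨(mc _ _).2 ?_, nC n hn x hx.2⟩
      have : z * x = x * z := (mc _ _).1 hx.1
      show n * z * n⁻¹ * (n * x * n⁻¹) = n * x * n⁻¹ * (n * z * n⁻¹)
      calc n * z * n⁻¹ * (n * x * n⁻¹) = n * (z * x) * n⁻¹ := by group
        _ = n * (x * z) * n⁻¹ := by rw [this]
        _ = _ := by group
    obtain ⟨c, hc⟩ := isConj_iff.1 (cj (π w) (oπ w on) (d3 _ (cc w (sq w on) ▸ h3.trans dv)))
    obtain ⟨c, rfl⟩ := πs c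
    have := lift (c * ⟨z, zσ⟩ * c⁻¹) w (by rw [conj_pow, sq ⟨z, zσ⟩ o2]; simp) (sq w on)
      (by rw [map_mul, map_mul, map_inv, hc])
    exact ⟨c, c.2, congrArg Subtype.val this⟩
  have o1 := orb C_[σ] z
  have o3 := orb N_(zpowers σ) z
  rw [c84, cX] at o1
  rw [c252, eo] at o3
  refine ⟨fun h => ?_, ?_, by rw [eC, cX]; omega, by omega⟩
  · obtain ⟨K, cK, l⟩ := Sylow.exists_subgroup_card_pow_succ (p := 7) (n := 1) h (H := zpowers σ)
      (by rw [Nat.card_zpowers, o7, pow_one])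
    have cm := (IsPGroup.isMulCommutative_of_card_eq_prime_sq (G := K) (p := 7) cK).is_comm.comm
    have KC : K ≤ C_[σ] := fun x hx => (mc _ _).2 (congrArg Subtype.val (cm ⟨σ, l (mem_zpowers σ)⟩ ⟨x, hx⟩))
    have := card_dvd_of_le KC
    rw [cK, cX] at this
    omega
  · obtain ⟨H, hH⟩ := Subgroup.exists_right_complement'_of_coprime (N := zpowers s)
      (by rw [cZ, index, c120]; norm_num)
    have ms : (zpowers s).map C_[σ].subtype = zpowers σ := MonoidHom.map_zpowers _ _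
    refine ⟨H.map C_[σ].subtype, ?_, ⟨((H.equivMapOfInjective _ C_[σ].subtype_injective).symm.trans
      hH.symm.QuotientMulEquiv.symm).trans e⟩⟩
    rw [eC]
    refine ⟨zpowers_le.2 ((mc _ _).2 rfl), map_subtype_le _, ?_, ?_, ?_⟩
    · rintro _ ⟨k, rfl⟩ _ ⟨b, -, rfl⟩
      exact (show Commute σ (b : G) from (mc _ _).1 b.2).zpow_left k
    · rw [← ms, ← map_inf _ _ _ C_[σ].subtype_injective, hH.disjoint.eq_bot, Subgroup.map_bot]
    · rw [← ms, ← Subgroup.map_sup, hH.sup_eq_top, ← MonoidHom.range_eq_map, range_subtype]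

end Cfsg.Agent.H02.S7F
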