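import Mathlib
import Cfsg.Agent.L.Jt0
import Cfsg.Agent.H14.OutM
import Cfsg.Agent.H14.MSimple

/-! Part `Z2` of the 3-local cluster: the structure of `X = C(z) ⊓ C(δ)`. -/

set_option autoImplicit false
open Cfsg BG Subgroup

namespace Cfsg.Agent.H02.TZ2
universe u

theorem nab : ¬ ∀ a b : Spor.M22, a * b = b * a := by
  intro h
  have s := H14.simple_M22
  let c : CommGroup Spor.M22 := { (inferInstance : Group Spor.M22) with mul_comm := h }
  have : (Nat.card Spor.M22).Prime := @IsSimpleGroup.prime_card Spor.M22 c s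
  rw [H14.card_M22] at this
  exact absurd this (by norm_num)

theorem cen : center Spor.M22 = ⊥ := by
  have s := H14.simple_M22
  rcases s.eq_bot_or_eq_top_of_normal (center Spor.M22) inferInstance with h | h
  · exact h
  · exact absurd (fun a b => mem_center_iff.1 (h ▸ mem_top b : b ∈ center Spor.M22) a) nab

theorem per : commutator Spor.M22 = ⊤ := by
  have s := H14.simple_M22
  rcases s.eq_bot_or_eq_top_of_normal (commutator Spor.M22) inferInstance with h | h
  · refine absurd (fun a b => ?_) nab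
    exact commutatorElement_eq_one_iff_mul_comm.1
      (Subgroup.mem_bot.1 (h ▸ Subgroup.commutator_mem_commutator trivial trivial))
  · exact h

theorem z2 : L.Jt.Z2Stmt.{u} := by
  intro G _ _ z δ θ t
  classical
  have zz : z ^ 2 = 1 := by rw [← t.z2]; exact pow_orderOf_eq_one z
  have dd : δ ^ 3 = 1 := by rw [← t.δ3]; exact pow_orderOf_eq_one δ
  have mc : ∀ a b : G, a ∈ C_[b] ↔ b * a = a * b := fun a b => by
    simp [mem_centralizer_iff]
  have c : Commute z δ := (mc _ _).1 t.δz
  have zX : z ∈ C_[z] ⊓ C_[δ] := ⟨(mc _ _).2 rfl, (mc _ _).2 c.symm⟩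
  have dX : δ ∈ C_[z] ⊓ C_[δ] := ⟨t.δz, (mc _ _).2 rfl⟩
  have cz : ∀ x ∈ C_[z] ⊓ C_[δ], ∀ i j : ℕ, Commute x (z ^ i * δ ^ j) := fun x hx i j =>
    ((show Commute z x from (mc _ _).1 hx.1).symm.pow_right i).mul_right
      ((show Commute δ x from (mc _ _).1 hx.2).symm.pow_right j)
  have ck : center ↥(C_[z] ⊓ C_[δ]) = θ.ker := by
    ext x
    constructor
    · intro hx
      have : θ x ∈ center Spor.M22 := by
        rw [mem_center_iff]
        intro g
        obtain ⟨y, rfl⟩ := t.sur g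
        rw [← map_mul, ← map_mul, mem_center_iff.1 hx y]
      rw [cen, mem_bot] at this
      exact this
    · intro hx
      obtain ⟨i, j, e⟩ := (t.ker x).1 hx
      rw [mem_center_iff]
      intro g
      apply Subtype.ext
      have := cz g g.2 i j
      rw [← e] at this
      exact this
  have e3 : (z * δ) ^ 3 = z := by rw [c.mul_pow, dd, mul_one, pow_succ, zz, one_mul]
  have e4 : (z * δ) ^ 4 = δ := by
    rw [c.mul_pow, show 4 = 2 * 2 from rfl, pow_mul, zz, one_pow, one_mul, show 2 * 2 = 3 + 1 from rfl, pow_succ, dd, one_mul]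
  have o6 : orderOf (z * δ) = 6 := by
    rw [c.orderOf_mul_eq_mul_orderOf_of_coprime (by rw [t.z2, t.δ3]; norm_num), t.z2, t.δ3]
  let w : ↥(C_[z] ⊓ C_[δ]) := ⟨z * δ, mul_mem zX dX⟩
  have kz : θ.ker = zpowers w := by
    apply le_antisymm
    · intro x hx
      obtain ⟨i, j, e⟩ := (t.ker x).1 hx
      have : x = w ^ (3 * i + 4 * j) := by
        apply Subtype.ext
        show (x : G) = (z * δ) ^ (3 * i + 4 * j)
        rw [pow_add, pow_mul, pow_mul, e3, e4, e]
      rw [this]
      exact npow_mem_zpowers _ _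
    · rw [zpowers_le]
      exact (t.ker w).2 ⟨1, 1, by simp [w]⟩
  have ow : orderOf w = 6 := by rw [← o6]; exact (orderOf_coe w).symm
  refine ⟨fun hz => ?_, ?_, ?_, ?_, fun l g hg => ?_⟩
  · have hm := map_subtype_commutator (C_[z] ⊓ C_[δ])
    have top : commutator ↥(C_[z] ⊓ C_[δ]) = ⊤ := by
      rw [eq_top_iff]
      intro x _
      have h1 : θ x ∈ (commutator ↥(C_[z] ⊓ C_[δ])).map θ := by
        rw [commutator_def, map_commutator, map_top_of_surjective θ t.sur, ← commutator_def, per]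
        exact mem_top _
      obtain ⟨y, hy, e⟩ := h1
      have hk : y⁻¹ * x ∈ θ.ker := by rw [MonoidHom.mem_ker, map_mul, map_inv, e, inv_mul_cancel]
      have hw : w ∈ commutator ↥(C_[z] ⊓ C_[δ]) := by
        have : z * δ ∈ (commutator ↥(C_[z] ⊓ C_[δ])).map (C_[z] ⊓ C_[δ]).subtype := by
          rw [hm]; exact mul_mem hz t.dc
        obtain ⟨v, hv, ev⟩ := this
        have : v = w := Subtype.ext ev
        exact this ▸ hv
      rw [kz] at hk
      have := mul_mem hy (zpowers_le.2 hw hk)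
      simpa using this
    rw [← hm, top, ← MonoidHom.range_eq_map, range_subtype]
  · rw [ck, kz]; infer_instance
  · rw [ck, kz, Nat.card_zpowers, ow]
  · exact ⟨(QuotientGroup.quotientMulEquivOfEq ck).trans (QuotientGroup.quotientKerEquivOfSurjective θ t.sur)⟩
  · have oe : orderOf (g * δ * g⁻¹) = 3 := by
      rw [← t.δ3]; exact (MulAut.conj g).orderOf_eq δ
    have ze : zpowers (g * δ * g⁻¹) = zpowers δ :=
      Subgroup.eq_of_le_of_card_ge (zpowers_le.2 hg) (by rw [Nat.card_zpowers, Nat.card_zpowers, oe, t.δ3])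
    -- conjugation by `g⁻¹` maps `C(δ)` into `C(δ)`
    have key : ∀ x ∈ C_[δ], g⁻¹ * x * g ∈ C_[δ] := by
      intro x hx
      obtain ⟨n, hn⟩ := hg
      have h1 : Commute x (g * δ * g⁻¹) := by
        rw [← hn]; exact (show Commute δ x from (mc _ _).1 hx).symm.zpow_right n
      rw [mc]
      have := h1.eq
      calc δ * (g⁻¹ * x * g) = g⁻¹ * (g * δ * g⁻¹ * x) * g := by group
        _ = g⁻¹ * (x * (g * δ * g⁻¹)) * g := by rw [this]
        _ = _ := by group
    have wd : g * z * g⁻¹ ∈ C_[δ] := by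
      have : δ ∈ zpowers (g * δ * g⁻¹) := ze ▸ mem_zpowers δ
      obtain ⟨n, hn⟩ := this
      have h1 : Commute (g * z * g⁻¹) (g * δ * g⁻¹) := by
        have := c.eq
        show _ = _
        calc g * z * g⁻¹ * (g * δ * g⁻¹) = g * (z * δ) * g⁻¹ := by group
          _ = g * (δ * z) * g⁻¹ := by rw [this]
          _ = _ := by group
      have h2 := h1.zpow_right n
      simp only at hn
      rw [hn] at h2
      exact (mc _ _).2 h2.symm
    let v : ↥(C_[z] ⊓ C_[δ]) := ⟨g * z * g⁻¹, l wd, wd⟩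
    have vc : v ∈ center ↥(C_[z] ⊓ C_[δ]) := by
      rw [mem_center_iff]
      intro x
      apply Subtype.ext
      have := (mc _ _).1 (l (key x x.2.2))
      show (x : G) * (g * z * g⁻¹) = g * z * g⁻¹ * x
      calc (x : G) * (g * z * g⁻¹) = g * (g⁻¹ * x * g * z) * g⁻¹ := by group
        _ = g * (z * (g⁻¹ * x * g)) * g⁻¹ := by rw [this]
        _ = _ := by group
    rw [ck, kz] at vc
    have zc : (⟨z, zX⟩ : ↥(C_[z] ⊓ C_[δ])) ∈ zpowers w := by
      rw [← kz]; exact (t.ker _).2 ⟨1, 0, by simp⟩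
    have ov : orderOf (g * z * g⁻¹) = 2 := by rw [← t.z2]; exact (MulAut.conj g).orderOf_eq z
    obtain ⟨i, j, e⟩ := (t.ker v).1 (by rw [← kz] at vc; exact vc)
    have e' : g * z * g⁻¹ = z ^ i * δ ^ j := e
    have v2 : (g * z * g⁻¹) ^ 2 = 1 := by rw [← ov]; exact pow_orderOf_eq_one _
    have v3 : (g * z * g⁻¹) ^ 3 = g * z * g⁻¹ := by rw [pow_succ, v2, one_mul]
    have e5 : g * z * g⁻¹ = z ^ (i * 3) := by
      rw [← v3, e', (c.pow_pow i j).mul_pow, ← pow_mul, ← pow_mul, mul_comm j, pow_mul δ, dd, one_pow, mul_one]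
    rw [mc]
    rcases Nat.even_or_odd' (i * 3) with ⟨k, hk | hk⟩
    · rw [hk, pow_mul, zz, one_pow] at e5
      rw [e5, orderOf_one] at ov
      exact absurd ov (by norm_num)
    · rw [hk, pow_succ, pow_mul, zz, one_pow, one_mul] at e5
      calc z * g = g * z * g⁻¹ * g := by rw [e5]
        _ = _ := by group

end Cfsg.Agent.H02.TZ2
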