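import Mathlib
import Cfsg.Agent.H23.Y0

/-! Part `M` of S5569: every singular vector is conjugate into `B`. -/

set_option autoImplicit false
open Cfsg BG Subgroup Cfsg.Agent.H06.J

namespace Cfsg.Agent.H02.YM
universe u

variable {V : Type u} [AddCommGroup V] [Module (ZMod 2) V] [Finite V] {Γ : Type u} [Group Γ] [Finite Γ]
  {T : Γ → V →+ V} {d : Γ} {M : Subgroup Γ} {β : V →+ V →+ ZMod 2} {q : V → ZMod 2}

theorem aa (v : V) : v + v = 0 := by
  rw [← two_smul (ZMod 2) v, show (2 : ZMod 2) = 0 from rfl, zero_smul]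

theorem bT (g : Gj T d M β q) (x : Γ) (u v : V) : β (T x u) (T x v) = β u v := by
  have h1 := g.pol (T x u) (T x v)
  rw [← map_add, g.qT, g.qT, g.qT, g.pol] at h1
  exact (add_left_cancel h1).symm

theorem inM (g : Gj T d M β q) {y : Γ} {n : ℕ} (h : y ^ (2 * n + 1) = 1) : y ∈ M := by
  have h2 : y ^ 2 ∈ M := by rw [sq]; exact M.mul_self_mem_of_index_two g.Mi y
  have : y = ((y ^ 2) ^ n)⁻¹ := eq_inv_of_mul_eq_one_right (by rw [← pow_mul, ← pow_succ, h])
  rw [this]
  exact inv_mem (pow_mem h2 n)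

theorem d3 (g : Gj T d M β q) (v : V) : T d (T d (T d v)) = v := by rw [← g.mul, ← g.mul, mul_assoc, g.d3, g.one]

theorem f7 (g : Gj T d M β q) {y : Γ} (o : orderOf y = 7) {v : V} (h : T y v = v) : v = 0 := by
  have y7 : y ^ 7 = 1 := o ▸ pow_orderOf_eq_one y
  have y1 : y ≠ 1 := fun e => by rw [e, orderOf_one] at o; omega
  obtain ⟨u, hu⟩ := not_forall.1 fun e => y1 (g.fai y e)
  refine (g.toQF.fpf (ω := T d) (Y := T y) (d3 g) (fun w => ?_) (fun w => ?_) (g.qT d) (g.qT y) (g.hf u) hu v).2 h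
  · simp only [← g.mul]
    rw [show y * (y * (y * (y * (y * (y * y))))) = y ^ 7 by simp [pow_succ, mul_assoc], y7, g.one]
  · rw [← g.mul, ← g.mul, g.Md y (inM g (n := 3) y7)]

theorem f11 (g : Gj T d M β q) {y : Γ} (o : orderOf y = 11) {v : V} (h : T y v = v) (hq : q v = 0) : v = 0 := by
  classical
  have : Fact (Nat.Prime 11) := ⟨by norm_num⟩
  have : Fact (Nat.Prime 2) := ⟨by norm_num⟩
  letI : MulAction Γ V := { smul := fun x w => T x w, one_smul := g.one, mul_smul := g.mul }
  have y11 : y ^ 11 = 1 := o ▸ pow_orderOf_eq_one y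
  have y1 : y ≠ 1 := fun e => by rw [e, orderOf_one] at o; omega
  have yM := inM g (n := 5) y11
  let C : AddSubgroup V := { carrier := {w | T y w = w}
                             zero_mem' := map_zero _
                             add_mem' := fun {a b} ha hb => by
                               show T y (a + b) = a + b
                               rw [map_add, ha, hb]
                             neg_mem' := fun {a} ha => by
                               show T y (-a) = -a
                               rw [map_neg, ha] }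
  have pw : ∀ w ∈ C, ∀ n : ℕ, T (y ^ n) w = w := fun w hw n => by
    induction n with
    | zero => rw [pow_zero, g.one]
    | succ n ih => rw [pow_succ, g.mul, hw, ih]
  have py : IsPGroup 11 (zpowers y) := IsPGroup.of_card (n := 1) (by rw [Nat.card_zpowers, o, pow_one])
  have m := py.card_modEq_card_fixedPoints V
  have e : MulAction.fixedPoints (zpowers y) V = C := by
    ext w
    constructor
    · intro hw
      exact hw ⟨y, mem_zpowers y⟩
    · rintro hw ⟨x, hx⟩
      obtain ⟨n, rfl⟩ := mem_powers_iff_mem_zpowers.2 hx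
      exact pw w hw n
  rw [e, g.card] at m
  have dv : Nat.card C ∣ 2 ^ 12 := by have := C.card_addSubgroup_dvd_card; rwa [g.card] at this
  obtain ⟨k, k12, hk⟩ := (Nat.dvd_prime_pow Nat.prime_two).1 dv
  have m' : 4096 ≡ 2 ^ k [MOD 11] := hk ▸ m
  have c4 : Nat.card C = 4 := by
    have : k ≠ 12 := fun e => y1 (g.fai y fun w => by
      have : C = ⊤ := AddSubgroup.eq_top_of_card_eq C (by rw [hk, e, g.card]; norm_num)
      exact (this ▸ AddSubgroup.mem_top w : w ∈ C))
    rw [hk]
    interval_cases k <;> first | rfl | exact absurd m' (by decide) | exact absurd rfl this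
  by_contra v0
  have dC : ∀ w ∈ C, T d w ∈ C := fun w hw => by
    show T y (T d w) = T d w
    rw [← g.mul, g.Md y yM, g.mul, hw]
  have e3 : v + T d v = T d (T d v) := by
    have := g.hf v
    rw [← add_zero (v + T d v), ← aa (T d (T d v)), ← add_assoc, this, zero_add]
  have b1 : β v (T d v) = 0 := by
    have := g.pol v (T d v)
    rw [e3, g.qT, g.qT, hq] at this
    simpa using this.symm
  have b0 : β v v = 0 := by
    have := g.pol v v
    rw [aa, g.toQF.q0, hq] at this
    simpa using this.symm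
  have dv0 : T d v ≠ 0 := fun e => v0 (by rw [← d3 g v, e, map_zero, map_zero])
  have dvv : T d v ≠ v := fun e => v0 (by have := g.hf v; rw [e, e, aa, zero_add] at this; exact this)
  have bC : ∀ w ∈ C, β v w = 0 := by
    let K : AddSubgroup V := C ⊓ (β v).ker
    have h3 : 3 ≤ Nat.card K := by
      have : ({0, v, T d v} : Set V) ⊆ K := by
        rintro w (rfl | rfl | rfl)
        · exact zero_mem K
        · exact ⟨h, b0⟩
        · exact ⟨dC v h, b1⟩
      have h2 := Set.ncard_le_ncard this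
      rw [Set.ncard_eq_three.2 ⟨0, v, T d v, Ne.symm v0, dv0.symm, dvv.symm, rfl⟩] at h2
      exact h2
    have h4 : Nat.card K ∣ 4 := c4 ▸ AddSubgroup.card_dvd_of_le inf_le_left
    have h5 : Nat.card K = 4 := by
      have := Nat.le_of_dvd (by norm_num) h4
      interval_cases hh : Nat.card K
      · exact absurd h4 (by decide)
      · rfl
    have : K = C := AddSubgroup.eq_of_le_of_card_ge inf_le_left (by rw [h5, c4])
    intro w hw
    exact (this ▸ hw : w ∈ K).2
  refine v0 (g.nd v fun u => ?_)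
  have s1 : (∑ i ∈ Finset.range 11, T (y ^ i) u) ∈ C := by
    show T y _ = _
    rw [map_sum]
    simp only [← g.mul, ← pow_succ']
    have := Finset.sum_range_succ' (fun i => T (y ^ i) u) 11
    rw [Finset.sum_range_succ, y11, pow_zero] at this
    exact (add_right_cancel this).symm
  have s2 := bC _ s1
  rw [map_sum, Finset.sum_congr rfl (fun i _ => show β v (T (y ^ i) u) = β v u by
    rw [← bT g (y ^ i) v u, pw v h i]), Finset.sum_const, Finset.card_range, nsmul_eq_mul] at s2
  rwa [show ((11 : ℕ) : ZMod 2) = 1 from rfl, one_mul] at s2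

theorem m : H23.Y.MStmt.{u} := by
  intro V _ _ _ Γ _ _ T d M K Y β q B g hx _ _ pj pi ⟨a, aB, b, bB, a0, b0, ab⟩ v hq
  classical
  have : Fact (Nat.Prime 11) := ⟨by norm_num⟩
  have : Fact (Nat.Prime 7) := ⟨by norm_num⟩
  have : Fact (Nat.Prime 3) := ⟨by norm_num⟩
  have : Fact (Nat.Prime 2) := ⟨by norm_num⟩
  letI : MulAction Γ V := { smul := fun x w => T x w, one_smul := g.one, mul_smul := g.mul }
  by_contra hn
  have hn' : ∀ x : Γ, T x v ∉ B := fun x h => hn ⟨x, h⟩
  have v0 : v ≠ 0 := fun e => hn' 1 (by rw [e, map_zero]; exact zero_mem B)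
  have c231 : ∀ w, w ≠ 0 → q w = 0 → 3 ∣ (MulAction.orbit Γ w).ncard ∧ 7 ∣ (MulAction.orbit Γ w).ncard ∧
      11 ∣ (MulAction.orbit Γ w).ncard := fun w w0 hw => by
    rw [← MulAction.index_stabilizer]
    have c := (MulAction.stabilizer Γ w).card_mul_index
    rw [g.cΓ] at c
    have gen : ∀ p : ℕ, p.Prime → p ∣ 2661120 → (∀ y : Γ, orderOf y = p → T y w ≠ w) →
        p ∣ (MulAction.stabilizer Γ w).index := fun p pp hp h => by
      have := Fact.mk pp
      rw [← c] at hp
      refine ((Nat.Prime.dvd_mul pp).1 hp).resolve_left fun h1 => ?_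
      obtain ⟨y, hy⟩ := exists_prime_orderOf_dvd_card' p h1
      exact h y ((orderOf_coe y).trans hy) y.2
    refine ⟨?_, gen 7 (by norm_num) (by norm_num) fun y o h => w0 (f7 g o h),
      gen 11 (by norm_num) (by norm_num) fun y o h => w0 (f11 g o h hw)⟩
    rw [MulAction.index_stabilizer]
    have dd : d ^ 3 = 1 := by rw [pow_three, g.d3]
    have pd : IsPGroup 3 (zpowers d) := by
      rintro ⟨x, k, rfl⟩
      refine ⟨1, Subtype.ext ?_⟩
      show (d ^ k) ^ 3 ^ 1 = 1
      rw [pow_one, ← zpow_natCast, ← zpow_mul, mul_comm, zpow_mul, zpow_natCast, dd, one_zpow]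
    have m := pd.card_modEq_card_fixedPoints (MulAction.orbit Γ w)
    have e : IsEmpty (MulAction.fixedPoints (zpowers d) (MulAction.orbit Γ w)) := ⟨fun ⟨⟨x, k, hk⟩, h⟩ => by
      have h1 : T d x = x := congrArg Subtype.val (h ⟨d, mem_zpowers d⟩)
      have h2 := g.hf x
      rw [h1, h1, aa, zero_add] at h2
      have h3 : T k w = 0 := hk.trans h2
      exact w0 (by rw [← g.one w, ← inv_mul_cancel k, g.mul, h3, map_zero])⟩
    rw [Nat.card_of_isEmpty (α := MulAction.fixedPoints (zpowers d) (MulAction.orbit Γ w))] at m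
    exact (Nat.modEq_zero_iff_dvd).1 m
  have c8 : 8 ∣ (MulAction.orbit Γ v).ncard := by
    rw [← MulAction.index_stabilizer]
    by_contra n8
    have c := (MulAction.stabilizer Γ v).card_mul_index
    rw [g.cΓ] at c
    have h64 : 2 ^ 6 ∣ Nat.card (MulAction.stabilizer Γ v) := by
      have h1 : (2 : ℕ) ^ 8 ∣ Nat.card (MulAction.stabilizer Γ v) * (MulAction.stabilizer Γ v).index := by
        rw [c]; norm_num
      generalize Nat.card (MulAction.stabilizer Γ v) = A, (MulAction.stabilizer Γ v).index = I at h1 n8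
      have h8 : I % 8 = 1 ∨ I % 8 = 2 ∨ I % 8 = 3 ∨ I % 8 = 4 ∨ I % 8 = 5 ∨ I % 8 = 6 ∨ I % 8 = 7 := by omega
      obtain ⟨j, o, hj⟩ : ∃ j, ¬ 2 ∣ j ∧ (I = j ∨ I = 2 * j ∨ I = 4 * j) := by
        by_cases i2 : 2 ∣ I
        · by_cases i4 : 4 ∣ I
          · exact ⟨I / 4, by omega, by omega⟩
          · exact ⟨I / 2, by omega, by omega⟩
        · exact ⟨I, i2, by omega⟩
      have co : Nat.Coprime (2 ^ 8) j := Nat.Coprime.pow_left 8 ((Nat.Prime.coprime_iff_not_dvd Nat.prime_two).2 o)
      have h2 : 2 ^ 8 ∣ A * 4 * j := h1.trans (by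
        rcases hj with rfl | rfl | rfl
        · exact ⟨4, by ring⟩
        · exact ⟨2, by ring⟩
        · exact ⟨1, by ring⟩)
      have h3 := co.dvd_of_dvd_mul_right h2
      omega
    obtain ⟨P0, hP0⟩ := Sylow.exists_subgroup_card_pow_prime 2 h64
    have cP : Nat.card (P0.map (MulAction.stabilizer Γ v).subtype) = 2 ^ 6 := (card_subtype _ _).trans hP0
    have Pl := map_subtype_le P0
    generalize P0.map (MulAction.stabilizer Γ v).subtype = P at cP Pl
    obtain ⟨S1, h1⟩ := (IsPGroup.of_card (p := 2) (n := 4) hx.cY).exists_le_sylow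
    obtain ⟨S2, h2⟩ := (IsPGroup.of_card cP).exists_le_sylow
    obtain ⟨x, e⟩ := MulAction.exists_smul_eq Γ S2 S1
    have l : P.map (MulAut.conj x).toMonoidHom ≤ S1 := by
      rintro _ ⟨k, hk, rfl⟩
      rw [← e, Sylow.coe_subgroup_smul]
      exact Subgroup.smul_mem_pointwise_smul _ (MulAut.conj x) _ (h2 hk)
    have cP' : Nat.card (P.map (MulAut.conj x).toMonoidHom) = 64 :=
      (card_map_of_injective (MulAut.conj x).injective).trans cP
    have fx : ∀ y ∈ P.map (MulAut.conj x).toMonoidHom, T y (T x v) = T x v := by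
      rintro _ ⟨k, hk, rfl⟩
      have : T k v = v := Pl hk
      show T (x * k * x⁻¹) (T x v) = _
      rw [← g.mul, inv_mul_cancel_right, g.mul, this]
    generalize P.map (MulAut.conj x).toMonoidHom = P' at l cP' fx
    have cS : Nat.card (S1 : Subgroup Γ) ≤ 256 := by
      obtain ⟨n, hn⟩ := IsPGroup.iff_card.1 S1.isPGroup'
      have h3 : Nat.card (S1 : Subgroup Γ) ∣ 2661120 := g.cΓ ▸ card_subgroup_dvd_card _
      rw [hn] at h3 ⊢
      have : n ≤ 8 := by
        by_contra h
        exact absurd ((pow_dvd_pow 2 (show 9 ≤ n by omega)).trans h3) (by norm_num)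
      exact Nat.pow_le_pow_right (by norm_num) this
    have r1 := card_mul_relIndex l
    have r2 := card_mul_relIndex h1
    have r3 := card_mul_relIndex (inf_le_left.trans l : P' ⊓ Y ≤ S1)
    have r4 := relIndex_inf_le (H := P') (K := Y) (L := (S1 : Subgroup Γ))
    rw [cP'] at r1
    rw [hx.cY] at r2
    have h3 : 2 < Nat.card ↥(P' ⊓ Y) := by
      by_contra h
      have i1 : P'.relIndex S1 ≤ 4 := by omega
      have h5 : Nat.card (S1 : Subgroup Γ) ≤ 2 * (4 * Y.relIndex S1) := by
        rw [← r3]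
        exact Nat.mul_le_mul (by omega) (r4.trans (Nat.mul_le_mul_right _ i1))
      have := Nat.card_pos (α := (S1 : Subgroup Γ))
      omega
    have := Fintype.ofFinite ↥(P' ⊓ Y)
    rw [Nat.card_eq_fintype_card] at h3
    obtain ⟨y1, y2, y3, n12, n13, n23⟩ := Fintype.two_lt_card_iff.1 h3
    have key : ∀ y y' : ↥(P' ⊓ Y), y ≠ 1 → y' ≠ 1 → y ≠ y' → False := fun y y' h h' hh =>
      hn' x (pi.two y y.2.2 y' y'.2.2 (fun e => h (Subtype.ext e)) (fun e => h' (Subtype.ext e))
        (fun e => hh (Subtype.ext e)) _ (fx _ y.2.1) (fx _ y'.2.1))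
    exact key (y1⁻¹ * y2) (y1⁻¹ * y3) (fun e => n12 (inv_mul_eq_one.1 e)) (fun e => n13 (inv_mul_eq_one.1 e))
      fun e => n23 (mul_left_cancel e)
  have sub : ∀ w, w ≠ 0 → q w = 0 → MulAction.orbit Γ w ⊆ {v | v ≠ 0 ∧ q v = 0} := by
    rintro w w0 hw _ ⟨k, rfl⟩
    exact ⟨fun h3 => w0 (by rw [← g.one w, ← inv_mul_cancel k, g.mul, show T k w = 0 from h3, map_zero]),
      (g.qT k w).trans hw⟩
  have dj : ∀ w w' : V, (∀ x, T x w ≠ w') → Disjoint (MulAction.orbit Γ w) (MulAction.orbit Γ w') := by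
    intro w w' h
    rw [Set.disjoint_left]
    rintro _ ⟨k, rfl⟩ ⟨k', e⟩
    have e' : T k' w' = T k w := e
    exact h (k'⁻¹ * k) (by rw [g.mul, ← e', ← g.mul, inv_mul_cancel, g.one])
  have n0 := g.toQF.n0 (ω := T d) (d3 g) (g.qT d) g.hf
  have le := Set.ncard_le_ncard (Set.union_subset (sub v v0 hq) (Set.union_subset (sub a a0 (pj.qB a aB))
    (sub b b0 (pj.qB b bB))))
  rw [Set.ncard_union_eq (Set.disjoint_union_right.2 ⟨dj v a fun x e => hn' x (e ▸ aB), dj v b fun x e => hn' x (e ▸ bB)⟩),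
    Set.ncard_union_eq (dj a b ab), n0] at le
  have ps : ∀ w : V, 0 < (MulAction.orbit Γ w).ncard := fun w =>
    (Set.ncard_pos (Set.toFinite _)).2 ⟨w, MulAction.mem_orbit_self w⟩
  have big : ∀ n k : ℕ, 0 < n → Nat.Coprime k 231 → k ∣ n → 3 ∣ n ∧ 7 ∣ n ∧ 11 ∣ n → k * 231 ≤ n := fun n k h0 hc hk h =>
    Nat.le_of_dvd h0 (hc.mul_dvd_of_dvd_of_dvd hk ((show Nat.Coprime 21 11 by norm_num).mul_dvd_of_dvd_of_dvd
      ((show Nat.Coprime 3 7 by norm_num).mul_dvd_of_dvd_of_dvd h.1 h.2.1) h.2.2))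
  have x1 := big _ 8 (ps v) (by norm_num) c8 (c231 v v0 hq)
  have x2 := big _ 1 (ps a) (by norm_num) (one_dvd _) (c231 a a0 (pj.qB a aB))
  have x3 := big _ 1 (ps b) (by norm_num) (one_dvd _) (c231 b b0 (pj.qB b bB))
  omega

end Cfsg.Agent.H02.YM
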